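import Mathlib
import Cfsg.Prelude.Def_Characters
import Cfsg.Prelude.Def_ParabolicCharacters

set_option autoImplicit false

namespace Cfsg.Agent.Lib.Helper36.Stu

open scoped ComplexConjugate

universe u v

/-- the spherical function of `χ` with respect to the subgroup `U`: the average of `χ` over the
coset `g U` -/
noncomputable def sph {G : Type u} [Group G] (U : Subgroup G) (χ : G → ℂ) (g : G) : ℂ :=
  (Nat.card U : ℂ)⁻¹ * ∑ᶠ u : U, χ (g * (u : G))

/-- the functional equations of a spherical function -/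
structure IsSph {G : Type u} [Group G] (U : Subgroup G) (f : G → ℂ) : Prop where
  one : f 1 = 1
  left : ∀ g, ∀ u ∈ U, f (u * g) = f g
  right : ∀ g, ∀ u ∈ U, f (g * u) = f g
  inv : ∀ g, f g⁻¹ = conj (f g)
  fe : ∀ g g', ∑ᶠ u : U, f (g * (u : G) * g') = (Nat.card U : ℂ) * (f g * f g')

/-- Package SPH: the spherical function of an irreducible character whose restriction to `U`
contains the trivial character exactly once satisfies the functional equations. -/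
def PkgSph : Prop := ∀ {G : Type u} [Group G] [Finite G] (U : Subgroup G) (χ : G → ℂ),
  Cfsg.IsIrrCharacter G χ → ∑ᶠ u : U, χ (u : G) = (Nat.card U : ℂ) → IsSph U (sph U χ)

/-- Package TORUS: a spherical function is multiplicative along elements normalising `U`, with
values of absolute value `1` there. -/
def PkgTorus : Prop := ∀ {G : Type u} [Group G] [Finite G] (U : Subgroup G) (f : G → ℂ),
  IsSph U f → ∀ h : G, (∀ u ∈ U, h * u * h⁻¹ ∈ U) → (∀ u ∈ U, h⁻¹ * u * h ∈ U) →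
    (∀ g, f (h * g) = f h * f g) ∧ (∀ g, f (g * h) = f g * f h) ∧ ‖f h‖ = 1

/-- Package CMP: two irreducible characters of the same degree, both containing the trivial
character of `U` once; if one spherical function dominates the other in absolute value, the
absolute values agree. -/
def PkgCmp : Prop := ∀ {G : Type u} [Group G] [Finite G] (U : Subgroup G) (χ₁ χ₂ : G → ℂ),
  Cfsg.IsIrrCharacter G χ₁ → Cfsg.IsIrrCharacter G χ₂ →
  ∑ᶠ u : U, χ₁ (u : G) = (Nat.card U : ℂ) → ∑ᶠ u : U, χ₂ (u : G) = (Nat.card U : ℂ) →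
  χ₁ 1 = χ₂ 1 → (∀ g, ‖sph U χ₂ g‖ ≤ ‖sph U χ₁ g‖) → ∀ g, ‖sph U χ₁ g‖ = ‖sph U χ₂ g‖

/-- Package UNIQ: an irreducible character containing the trivial character of `U` once is
determined by its degree and its spherical function. -/
def PkgUniq : Prop := ∀ {G : Type u} [Group G] [Finite G] (U : Subgroup G) (χ₁ χ₂ : G → ℂ),
  Cfsg.IsIrrCharacter G χ₁ → Cfsg.IsIrrCharacter G χ₂ →
  ∑ᶠ u : U, χ₁ (u : G) = (Nat.card U : ℂ) → ∑ᶠ u : U, χ₂ (u : G) = (Nat.card U : ℂ) →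
  χ₁ 1 = χ₂ 1 → (∀ g, sph U χ₁ g = sph U χ₂ g) → χ₁ = χ₂

/-- Package QUAD: the quadratic relation `q z² = τ (1 + z ∑ c i)` with `q - 1` unit complex
numbers `c i`, one of them `1`, and `|τ| = 1` forces `|z| ≥ 1/q`, with equality only for
`z = -1/q`, `τ = 1` and all `c i = 1`. -/
def PkgQuad : Prop := ∀ {ι : Type v} [Fintype ι] (q : ℕ) (z τ : ℂ) (c : ι → ℂ) (i₀ : ι),
  Fintype.card ι + 1 = q → ‖τ‖ = 1 → (∀ i, ‖c i‖ = 1) → c i₀ = 1 →
  (q : ℂ) * z ^ 2 = τ * (1 + z * ∑ i, c i) →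
  (1 / (q : ℝ) ≤ ‖z‖) ∧ (‖z‖ = 1 / (q : ℝ) → z = -1 / (q : ℂ) ∧ τ = 1 ∧ ∀ i, c i = 1)

/-- Package FIB: summation over `U = Y · x(T)` (unique factorisation) of a function which is left
`Y`-invariant. -/
def PkgFib : Prop := ∀ {G : Type u} [Group G] [Finite G] (U Y : Subgroup G) {T : Type v}
  [Fintype T] (x : T → G),
  Y ≤ U → (∀ t, x t ∈ U) → (∀ u ∈ U, ∃ t, ∃ y ∈ Y, u = y * x t) →
  (∀ t t', ∀ y ∈ Y, ∀ y' ∈ Y, y * x t = y' * x t' → t = t') →
  ∀ φ : G → ℂ, (∀ y ∈ Y, ∀ t, φ (y * x t) = φ (x t)) →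
    ∑ᶠ u : U, φ (u : G) = (Nat.card Y : ℂ) * ∑ t : T, φ (x t) ∧
    Nat.card U = Nat.card Y * Fintype.card T

/-- Package MULT1 (multiplicity one, Gelfand–Graev): `U ≤ B`, `U` normal in `B` with abelian
quotient, `lam` a linear character of `U`, `g₀` with `U ∩ g₀ B g₀⁻¹ = 1`, and every `g` outside
`U g₀ B` admits `u ∈ U ∩ g U g⁻¹` with `lam u ≠ 1`. Then an irreducible character vanishing on
`U \ {1}` has degree `|U|`. -/
def PkgMult1 : Prop := ∀ {G : Type u} [Group G] [Finite G] (U B : Subgroup G) (lam : G → ℂ)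
  (g₀ : G) (χ : G → ℂ),
  U ≤ B → (∀ b ∈ B, ∀ u ∈ U, b * u * b⁻¹ ∈ U) → (∀ b ∈ B, ∀ b' ∈ B, b * b' * b⁻¹ * b'⁻¹ ∈ U) →
  (∀ u ∈ U, ∀ u' ∈ U, lam (u * u') = lam u * lam u') → lam 1 = 1 →
  (∀ u ∈ U, g₀⁻¹ * u * g₀ ∈ B → u = 1) →
  (∀ g : G, (∃ u ∈ U, ∃ b ∈ B, g = u * g₀ * b) ∨ (∃ u ∈ U, g⁻¹ * u * g ∈ U ∧ lam u ≠ 1)) →
  Cfsg.IsIrrCharacter G χ → (∀ u ∈ U, u ≠ 1 → χ u = 0) →
  χ 1 = (Nat.card U : ℂ)

/-- Package ADDCHAR: a finite field has a nontrivial additive character. -/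
def PkgAddChar : Prop := ∀ {F : Type u} [Field F] [Fintype F],
  ∃ ψ : F → ℂ, ψ 0 = 1 ∧ (∀ a b, ψ (a + b) = ψ a * ψ b) ∧ ∃ a, ψ a ≠ 1

/-- Package BURN: the permutation character on `G / H` sums to `|G|` (one orbit). -/
def PkgBurn : Prop := ∀ {G : Type u} [Group G] [Finite G] (H : Subgroup G),
  ∑ᶠ g : G, Cfsg.fixedPointCharacter H g = (Nat.card G : ℂ)

/-- Package FROB: Frobenius reciprocity for a permutation character and a class function. -/
def PkgFrob : Prop := ∀ {G : Type u} [Group G] [Finite G] (P : Subgroup G) (φ : G → ℂ),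
  (∀ g h, φ (h * g * h⁻¹) = φ g) →
  ∑ᶠ x : G, Cfsg.fixedPointCharacter P x * φ x = (P.index : ℂ) * ∑ᶠ x : P, φ (x : G)

/-- Package PARSUM: if a spherical function is `1` on `B` and constant `c` on `P \ B ≠ ∅`, and the
character sums to `0` over `P`, then `c` is a negative real number. -/
def PkgParSum : Prop := ∀ {G : Type u} [Group G] [Finite G] (U B P : Subgroup G) (χ : G → ℂ)
  (c : ℂ),
  U ≤ B → B ≤ P → (∀ x ∈ B, sph U χ x = 1) → (∀ x ∈ P, x ∉ B → sph U χ x = c) →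
  (∃ x ∈ P, x ∉ B) → ∑ᶠ x : P, χ (x : G) = 0 → ∃ r : ℝ, r < 0 ∧ c = (r : ℂ)

end Cfsg.Agent.Lib.Helper36.Stu
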