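import Cfsg.Agent.Lib.Helper36.StiB
import Cfsg.Agent.Lib.Helper36.Stu.Defs

/-!
# Project STU, Chevalley side: definitions and package statements
-/

set_option autoImplicit false

namespace Cfsg.Agent.Lib.Helper36.Stu

open Cfsg Cfsg.Lie Cfsg.Agent.Lib.Helper18 Cfsg.Agent.Lib.Helper36

universe u

/-- extension by zero of a function on the Chevalley group to the general linear group -/
noncomputable def ext {F : Type u} [Field F] (D : ChevalleyDatum) (f : ↥(D.group F) → ℂ)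
    (g : GL D.Idx F) : ℂ :=
  open Classical in if h : g ∈ D.group F then f ⟨g, h⟩ else 0

/-- the functional equations of a spherical function of a Chevalley group with respect to `U`,
written on the general linear group, together with multiplicativity along `H` -/
structure SphC {F : Type u} [Field F] (D : ChevalleyDatum) (φ : GL D.Idx F → ℂ) : Prop where
  one : φ 1 = 1
  left : ∀ g ∈ D.group F, ∀ u ∈ D.posUnipotent F, φ (u * g) = φ g
  right : ∀ g ∈ D.group F, ∀ u ∈ D.posUnipotent F, φ (g * u) = φ g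
  fe : ∀ g ∈ D.group F, ∀ g' ∈ D.group F,
    ∑ᶠ u : ↥(D.posUnipotent F), φ (g * (u : GL D.Idx F) * g') =
      (Nat.card ↥(D.posUnipotent F) : ℂ) * (φ g * φ g')
  hl : ∀ h ∈ D.diagonalSubgroup F, ∀ g ∈ D.group F, φ (h * g) = φ h * φ g
  hr : ∀ h ∈ D.diagonalSubgroup F, ∀ g ∈ D.group F, φ (g * h) = φ g * φ h
  hn : ∀ h ∈ D.diagonalSubgroup F, ‖φ h‖ = 1

/-- left-reduced words: each letter `a` in front of the tail `l` satisfies `l⁻¹ (α_a) > 0` -/
def LRed (D : ChevalleyDatum) : List (Fin D.rank) → Prop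
  | [] => True
  | a :: l => D.IsPosRoot (wordF D l.reverse (D.simple a)) ∧ LRed D l

/-- Package CGLUE: from the group-level functional equations to the `GL`-level ones. -/
def PkgCGlue : Prop := PkgTorus.{u} → ∀ {F : Type u} [Field F] [Fintype F] (D : ChevalleyDatum)
  (_hD : D ∈ [chevG2, chevB2, chevD4, chevF4, chevE6, chevE7, chevE8]) (f : ↥(D.group F) → ℂ),
  IsSph ((D.posUnipotent F).subgroupOf (D.group F)) f → SphC D (ext D f)

/-- Package CQ: the rank one quadratic relation. -/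
def PkgCQ : Prop := PkgFib.{u, u} → ∀ {F : Type u} [Field F] [Fintype F] (D : ChevalleyDatum)
  (hD : D ∈ [chevG2, chevB2, chevD4, chevF4, chevE6, chevE7, chevE8]) (φ : GL D.Idx F → ℂ),
  SphC D φ → ∀ i : Fin D.rank, ∃ hC : Fˣ → GL D.Idx F,
    (∀ t, hC t ∈ D.diagonalSubgroup F) ∧
    (∀ t, ((hC t : GL D.Idx F) : Matrix D.Idx D.Idx F) = D.hMat F (D.simple i) (t : F)) ∧
    hC 1 = 1 ∧
    (Fintype.card F : ℂ) * φ (Cfsg.Agent.Lib.Helper36.nU D hD i) ^ 2 =
      φ (Cfsg.Agent.Lib.Helper36.nU D hD i * Cfsg.Agent.Lib.Helper36.nU D hD i) *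
        (1 + φ (Cfsg.Agent.Lib.Helper36.nU D hD i) * ∑ᶠ t : Fˣ, φ (hC t))

/-- Package CM: multiplicativity along left-reduced words. -/
def PkgCM : Prop := ∀ {F : Type u} [Field F] [Fintype F] (D : ChevalleyDatum)
  (hD : D ∈ [chevG2, chevB2, chevD4, chevF4, chevE6, chevE7, chevE8]) (φ : GL D.Idx F → ℂ),
  SphC D φ → ∀ l : List (Fin D.rank), LRed D l →
    φ (nW D hD l) = (l.map (fun a => φ (Cfsg.Agent.Lib.Helper36.nU D hD a))).prod

/-- Package CR: every element of the group is `u * h * n_l * u'` with `l` left-reduced. -/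
def PkgCR : Prop := ∀ {F : Type u} [Field F] (D : ChevalleyDatum)
  (hD : D ∈ [chevG2, chevB2, chevD4, chevF4, chevE6, chevE7, chevE8]),
  ∀ g ∈ D.group F, ∃ u ∈ D.posUnipotent F, ∃ h ∈ D.diagonalSubgroup F, ∃ l : List (Fin D.rank),
    LRed D l ∧ ∃ u' ∈ D.posUnipotent F, g = u * h * nW D hD l * u'

/-- Package CT: `H` is generated by the `h_{α_i}(t)`, so a spherical function trivial on these is
trivial on `H`. -/
def PkgCT : Prop := ∀ {F : Type u} [Field F] (D : ChevalleyDatum)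
  (_hD : D ∈ [chevG2, chevB2, chevD4, chevF4, chevE6, chevE7, chevE8]) (φ : GL D.Idx F → ℂ),
  SphC D φ →
  (∀ i : Fin D.rank, ∀ h ∈ D.diagonalSubgroup F, ∀ t : F, t ≠ 0 →
    ((h : GL D.Idx F) : Matrix D.Idx D.Idx F) = D.hMat F (D.simple i) t → φ h = 1) →
  ∀ h ∈ D.diagonalSubgroup F, φ h = 1

/-- Package CP: the minimal parabolic `P_j` is `B ∪ B n_j B`, and `n_j ∉ B`. -/
def PkgCP : Prop := ∀ {F : Type u} [Field F] (D : ChevalleyDatum)
  (hD : D ∈ [chevG2, chevB2, chevD4, chevF4, chevE6, chevE7, chevE8]) (j : Fin D.rank),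
  Cfsg.Agent.Lib.Helper36.nU D hD j ∉ D.borelSubgroup F ∧
  ∀ x ∈ D.parabolicSubgroup F ({(j : ℕ)} : Set ℕ), x ∉ D.borelSubgroup F →
    ∃ b ∈ D.borelSubgroup F, ∃ b' ∈ D.borelSubgroup F,
      x = b * Cfsg.Agent.Lib.Helper36.nU D hD j * b'

/-- Package CS1: the Steinberg character sums to `0` over each minimal parabolic subgroup. -/
def PkgCS1 : Prop := PkgFrob.{u} → ∀ {F : Type u} [Field F] [Fintype F] (D : ChevalleyDatum)
  (_hD : D ∈ [chevG2, chevB2, chevD4, chevF4, chevE6, chevE7, chevE8]) (j : Fin D.rank),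
  ∑ᶠ x : ↥(D.parabolicIn F {(j : ℕ)}), D.steinbergCharacter F (x : ↥(D.group F)) = 0

/-- Package CS2: the spherical function of the Steinberg character is `1` on `H`. -/
def PkgCS2 : Prop := PkgBurn.{u} → ∀ {F : Type u} [Field F] [Fintype F] (D : ChevalleyDatum)
  (_hD : D ∈ [chevG2, chevB2, chevD4, chevF4, chevE6, chevE7, chevE8]),
  (∀ h ∈ D.diagonalSubgroup F,
    ‖ext D (sph ((D.posUnipotent F).subgroupOf (D.group F)) (D.steinbergCharacter F)) h‖ = 1) →
  ∀ h ∈ D.diagonalSubgroup F,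
    ext D (sph ((D.posUnipotent F).subgroupOf (D.group F)) (D.steinbergCharacter F)) h = 1

/-- Package CLA: the Gelfand–Graev data on the `GL` level. -/
def PkgCLa : Prop := PkgAddChar.{u} → ∀ {F : Type u} [Field F] [Fintype F] (D : ChevalleyDatum)
  (_hD : D ∈ [chevG2, chevB2, chevD4, chevF4, chevE6, chevE7, chevE8]),
  ∃ (lam : GL D.Idx F → ℂ) (g₀ : GL D.Idx F), g₀ ∈ D.group F ∧
    (∀ u ∈ D.posUnipotent F, ∀ u' ∈ D.posUnipotent F, lam (u * u') = lam u * lam u') ∧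
    lam 1 = 1 ∧
    (∀ u ∈ D.posUnipotent F, g₀⁻¹ * u * g₀ ∈ D.borelSubgroup F → u = 1) ∧
    (∀ g ∈ D.group F, (∃ u ∈ D.posUnipotent F, ∃ b ∈ D.borelSubgroup F, g = u * g₀ * b) ∨
      (∃ u ∈ D.posUnipotent F, g⁻¹ * u * g ∈ D.posUnipotent F ∧ lam u ≠ 1))

/-- Package CLB: from the Gelfand–Graev data to the degree of a character vanishing on
`U \ {1}`. -/
def PkgCLb : Prop := PkgMult1.{u} → ∀ {F : Type u} [Field F] [Fintype F] (D : ChevalleyDatum)
  (_hD : D ∈ [chevG2, chevB2, chevD4, chevF4, chevE6, chevE7, chevE8]),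
  (∃ (lam : GL D.Idx F → ℂ) (g₀ : GL D.Idx F), g₀ ∈ D.group F ∧
    (∀ u ∈ D.posUnipotent F, ∀ u' ∈ D.posUnipotent F, lam (u * u') = lam u * lam u') ∧
    lam 1 = 1 ∧
    (∀ u ∈ D.posUnipotent F, g₀⁻¹ * u * g₀ ∈ D.borelSubgroup F → u = 1) ∧
    (∀ g ∈ D.group F, (∃ u ∈ D.posUnipotent F, ∃ b ∈ D.borelSubgroup F, g = u * g₀ * b) ∨
      (∃ u ∈ D.posUnipotent F, g⁻¹ * u * g ∈ D.posUnipotent F ∧ lam u ≠ 1))) →
  ∀ χ : ↥(D.group F) → ℂ, Cfsg.IsIrrCharacter ↥(D.group F) χ →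
    (∀ u ∈ (D.posUnipotent F).subgroupOf (D.group F), u ≠ 1 → χ u = 0) →
    χ 1 = (Nat.card ↥((D.posUnipotent F).subgroupOf (D.group F)) : ℂ)

end Cfsg.Agent.Lib.Helper36.Stu
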