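import Cfsg.Agent.Lib.Helper36.Stu.CDefs

/-!
# Project STU: the Gelfand–Graev data (package CLA)
-/

set_option autoImplicit false

namespace Cfsg.Agent.Lib.Helper36.Stu

open Cfsg Cfsg.Lie Cfsg.Agent.Lib.Helper18 Cfsg.Agent.Lib.Helper36

universe u

/-- table check: distinct nodes have distinct fundamental roots -/
def simpInjOK (D : ChevalleyDatum) : Bool :=
  (List.range D.rank).all fun i => (List.range D.rank).all fun j =>
    decide (D.simple i = D.simple j → i = j)

theorem simpInjOK_all (D : ChevalleyDatum)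
    (hD : D ∈ [chevG2, chevB2, chevD4, chevF4, chevE6, chevE7, chevE8]) : simpInjOK D = true := by
  simp only [List.mem_cons, List.not_mem_nil, or_false] at hD
  rcases hD with rfl | rfl | rfl | rfl | rfl | rfl | rfl <;> decide +kernel

theorem simple_inj (D : ChevalleyDatum)
    (hD : D ∈ [chevG2, chevB2, chevD4, chevF4, chevE6, chevE7, chevE8]) (i j : Fin D.rank)
    (h : D.simple i = D.simple j) : i = j := by
  have h1 := simpInjOK_all D hD
  unfold simpInjOK at h1
  rw [List.all_eq_true] at h1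
  have h2 := h1 i (List.mem_range.mpr i.isLt)
  rw [List.all_eq_true] at h2
  have h3 := h2 j (List.mem_range.mpr j.isLt)
  exact Fin.ext (of_decide_eq_true h3 h)

theorem pkgCLa_aux : PkgCLa.{u} := by
  intro hAdd F _ _ D hD
  classical
  obtain ⟨ψ, hψ0, hψadd, a₀, ha₀⟩ := hAdd (F := F)
  have hS := sgnOK_all D hD
  have hUG : D.posUnipotent F ≤ D.group F := posUnipotent_le_group D hD
  have hBG : D.borelSubgroup F ≤ D.group F := borelSubgroup_le_group D hD
  have hHB : D.diagonalSubgroup F ≤ D.borelSubgroup F := le_sup_right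
  have hUB : D.posUnipotent F ≤ D.borelSubgroup F := le_sup_left
  have hnormU := diagonalSubgroup_le_normalizer_posUnipotent (F := F) D hD
  have hBnorm : D.borelSubgroup F ≤ Subgroup.normalizer (D.posUnipotent F : Set (GL D.Idx F)) :=
    sup_le Subgroup.le_normalizer hnormU
  have hxU : ∀ (i : Fin D.rank) (t : F), xU D hD (D.simple i) t ∈ D.posUnipotent F := fun i t =>
    Subgroup.subset_closure ⟨_, t, hS.pos_simple i i.isLt, coe_xU D hD _ t⟩
  -- the coordinates
  have hex : ∀ (i : Fin D.rank) (u : GL D.Idx F), u ∈ D.posUnipotent F →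
      ∃ t : F, ∃ y ∈ uComp (F := F) D i, u = y * xU D hD (D.simple i) t := by
    intro i u hu
    obtain ⟨y, hy, t, e⟩ := exists_uComp_mul D hD i u hu
    exact ⟨t, y, hy, e⟩
  let τ : Fin D.rank → GL D.Idx F → F := fun i u =>
    if h : u ∈ D.posUnipotent F then Classical.choose (hex i u h) else 0
  have hτspec : ∀ (i : Fin D.rank) (u : GL D.Idx F), u ∈ D.posUnipotent F →
      ∃ y ∈ uComp (F := F) D i, u = y * xU D hD (D.simple i) (τ i u) := by
    intro i u hu
    have h1 := Classical.choose_spec (hex i u hu)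
    have h2 : τ i u = Classical.choose (hex i u hu) := dif_pos hu
    rw [h2]
    exact h1
  have huniq : ∀ (i : Fin D.rank) (t t' : F) (y y' : GL D.Idx F), y ∈ uComp (F := F) D i →
      y' ∈ uComp (F := F) D i →
      y * xU D hD (D.simple i) t = y' * xU D hD (D.simple i) t' → t = t' := by
    intro i t t' y y' hy hy' e
    have h1 : xU D hD (D.simple i) (t' + -t) ∈ uComp (F := F) D i := by
      have h2 : y'⁻¹ * y = xU D hD (D.simple i) t' * (xU D hD (D.simple i) t)⁻¹ := by
        rw [inv_mul_eq_iff_eq_mul, ← mul_assoc, ← e, mul_assoc, mul_inv_cancel, mul_one]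
      rw [← xU_mul, ← xU_inv, ← h2]
      exact Subgroup.mul_mem _ (Subgroup.inv_mem _ hy') hy
    have h3 := eq_zero_of_xU_mem_uComp D hD i _ h1
    have h4 : t' - t = 0 := by rw [sub_eq_add_neg]; exact h3
    exact (sub_eq_zero.mp h4).symm
  have hτeq : ∀ (i : Fin D.rank) (u y : GL D.Idx F) (t : F), u ∈ D.posUnipotent F →
      y ∈ uComp (F := F) D i → u = y * xU D hD (D.simple i) t → τ i u = t := by
    intro i u y t hu hy e
    obtain ⟨y', hy', e'⟩ := hτspec i u hu
    exact huniq i _ _ y' y hy' hy (e'.symm.trans e)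
  have hτmul : ∀ (i : Fin D.rank) (u u' : GL D.Idx F), u ∈ D.posUnipotent F →
      u' ∈ D.posUnipotent F → τ i (u * u') = τ i u + τ i u' := by
    intro i u u' hu hu'
    obtain ⟨y, hy, e⟩ := hτspec i u hu
    obtain ⟨y', hy', e'⟩ := hτspec i u' hu'
    have h1 := conj_mem_of_mem_normalizer (uComp (F := F) D i)
      (posUnipotent_le_normalizer_uComp D hD i (hxU i (τ i u))) hy'
    refine hτeq i (u * u') (y * (xU D hD (D.simple i) (τ i u) * y' *
      (xU D hD (D.simple i) (τ i u))⁻¹)) _ (Subgroup.mul_mem _ hu hu')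
      (Subgroup.mul_mem _ hy h1) ?_
    rw [← xU_mul]
    conv_lhs => rw [e, e']
    group
  have hτone : ∀ i : Fin D.rank, τ i 1 = 0 := by
    intro i
    refine hτeq i 1 1 0 (Subgroup.one_mem _) (Subgroup.one_mem _) ?_
    rw [xU_zero, one_mul]
  have hτself : ∀ (i : Fin D.rank) (t : F), τ i (xU D hD (D.simple i) t) = t := by
    intro i t
    exact hτeq i _ 1 t (hxU i t) (Subgroup.one_mem _) (one_mul _).symm
  have hτother : ∀ (i j : Fin D.rank) (t : F), j ≠ i → τ j (xU D hD (D.simple i) t) = 0 := by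
    intro i j t hne
    refine hτeq j _ (xU D hD (D.simple i) t) 0 (hxU i t) ?_ ?_
    · exact Subgroup.subset_closure ⟨D.simple i, t, hS.pos_simple i i.isLt,
        fun h => hne (simple_inj D hD i j h).symm, coe_xU D hD _ t⟩
    · rw [xU_zero, mul_one]
  -- the character
  let lam : GL D.Idx F → ℂ := fun u => ∏ i : Fin D.rank, ψ (τ i u)
  have hlam_mul : ∀ u ∈ D.posUnipotent F, ∀ u' ∈ D.posUnipotent F,
      lam (u * u') = lam u * lam u' := by
    intro u hu u' hu'
    show ∏ i : Fin D.rank, ψ (τ i (u * u')) =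
      (∏ i : Fin D.rank, ψ (τ i u)) * ∏ i : Fin D.rank, ψ (τ i u')
    rw [← Finset.prod_mul_distrib]
    exact Finset.prod_congr rfl (fun i _ => by rw [hτmul i u u' hu hu', hψadd])
  have hlam_one : lam 1 = 1 := by
    show ∏ i : Fin D.rank, ψ (τ i 1) = 1
    exact Finset.prod_eq_one (fun i _ => by rw [hτone i, hψ0])
  have hlam_x : ∀ (i : Fin D.rank) (t : F), lam (xU D hD (D.simple i) t) = ψ t := by
    intro i t
    show ∏ j : Fin D.rank, ψ (τ j (xU D hD (D.simple i) t)) = ψ t
    rw [Finset.prod_eq_single i (fun j _ hj => by rw [hτother i j t hj, hψ0])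
      (fun h => absurd (Finset.mem_univ i) h), hτself]
  -- the longest element
  obtain ⟨l0, hl0⟩ := exists_long D hD
  have hl0r : ∀ i : Fin D.rank, D.IsNegRoot (wordF D l0.reverse (D.simple i.val)) := by
    intro i
    have hlt := simple_lt D hD i.val i.isLt
    rcases hS.pos_or_neg _ (wordF_lt D hD l0.reverse _ hlt) with h | h
    · exfalso
      have h2 := word_neg_of_simple D hD l0 hl0 _ h
      have h3 : wordF D l0 (wordF D l0.reverse (D.simple i.val)) = D.simple i.val := by
        have := wordF_reverse_cancel D hD l0.reverse _ hlt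
        rwa [List.reverse_reverse] at this
      rw [h3] at h2
      exact hS.not_both _ ⟨hS.pos_simple i.val i.isLt, h2⟩
    · exact h
  refine ⟨lam, nW D hD l0.reverse, nW_mem_group D hD _, hlam_mul, hlam_one, ?_, ?_⟩
  · intro u hu hconj
    have h1 := (long_stab D hD l0.reverse hl0r u (hUB hu)).mp hconj
    have h2 : u ∈ D.posUnipotent F ⊓ D.monomialSubgroup F :=
      ⟨hu, (le_sup_left : D.diagonalSubgroup F ≤ D.monomialSubgroup F) h1⟩
    rw [(Cfsg.Agent.S1040.result D hD).1] at h2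
    exact Subgroup.mem_bot.mp h2
  · intro g hg
    obtain ⟨b₁, hb₁, l, b₂, hb₂, e⟩ := bruhat_word D hD g hg
    have e0 : g = b₁ * nW D hD l * b₂ := e
    obtain ⟨u₁, hu₁, h₁, hh₁, e₁⟩ := exists_mul_of_mem_sup (D.posUnipotent F)
      (D.diagonalSubgroup F) hnormU b₁ hb₁
    have hN := nW_mem_normalizer (F := F) D hD l
    have hNi : (nW (F := F) D hD l)⁻¹ ∈
        Subgroup.normalizer (D.diagonalSubgroup F : Set (GL D.Idx F)) := Subgroup.inv_mem _ hN
    have h3 := conj_mem_of_mem_normalizer _ hNi hh₁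
    rw [inv_inv] at h3
    have hb₃ : (nW (F := F) D hD l)⁻¹ * h₁ * nW D hD l * b₂ ∈ D.borelSubgroup F :=
      Subgroup.mul_mem _ (hHB h3) hb₂
    have e2 : g = u₁ * nW D hD l * ((nW (F := F) D hD l)⁻¹ * h₁ * nW D hD l * b₂) := by
      rw [e0, e₁]
      group
    by_cases hcase : ∃ i : Fin D.rank, D.IsPosRoot (wordF D l.reverse (D.simple i))
    · right
      obtain ⟨i, hi⟩ := hcase
      obtain ⟨t', ht'⟩ := nW_inv_conj_xU D hD l (D.simple i) (simple_lt D hD i i.isLt) a₀
      have hx' : xU D hD (wordF D l.reverse (D.simple i)) t' ∈ D.posUnipotent F :=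
        Subgroup.subset_closure ⟨_, t', hi, coe_xU D hD _ t'⟩
      have hu₁i : u₁⁻¹ ∈ D.posUnipotent F := Subgroup.inv_mem _ hu₁
      refine ⟨u₁ * xU D hD (D.simple i) a₀ * u₁⁻¹,
        Subgroup.mul_mem _ (Subgroup.mul_mem _ hu₁ (hxU i a₀)) hu₁i, ?_, ?_⟩
      · have e3 : g⁻¹ * (u₁ * xU D hD (D.simple i) a₀ * u₁⁻¹) * g =
            ((nW (F := F) D hD l)⁻¹ * h₁ * nW D hD l * b₂)⁻¹ *
            ((nW D hD l)⁻¹ * xU D hD (D.simple i) a₀ * nW D hD l) *
            ((nW (F := F) D hD l)⁻¹ * h₁ * nW D hD l * b₂)⁻¹⁻¹ := by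
          conv_lhs => rw [e2]
          group
        rw [e3, ht']
        exact conj_mem_of_mem_normalizer _ (hBnorm (Subgroup.inv_mem _ hb₃)) hx'
      · rw [hlam_mul _ (Subgroup.mul_mem _ hu₁ (hxU i a₀)) _ hu₁i, hlam_mul _ hu₁ _ (hxU i a₀),
          hlam_x]
        have h4 : lam u₁ * lam u₁⁻¹ = 1 := by
          rw [← hlam_mul _ hu₁ _ hu₁i, mul_inv_cancel, hlam_one]
        intro h5
        apply ha₀
        calc ψ a₀ = (lam u₁ * lam u₁⁻¹) * ψ a₀ := by rw [h4, one_mul]
          _ = lam u₁ * ψ a₀ * lam u₁⁻¹ := by ring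
          _ = 1 := h5
    · left
      have hneg : ∀ i : Fin D.rank, D.IsNegRoot (wordF D l.reverse (D.simple i.val)) := by
        intro i
        rcases hS.pos_or_neg _ (wordF_lt D hD l.reverse _ (simple_lt D hD i.val i.isLt)) with
          h | h
        · exact absurd ⟨i, h⟩ hcase
        · exact h
      have h5 := long_unique (F := F) D hD l.reverse l0 hneg hl0
      have h6 := rev_diag D hD l.reverse l0 h5
      rw [List.reverse_reverse] at h6
      refine ⟨u₁, hu₁, ((nW (F := F) D hD l)⁻¹ * nW D hD l0.reverse)⁻¹ *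
        ((nW (F := F) D hD l)⁻¹ * h₁ * nW D hD l * b₂),
        Subgroup.mul_mem _ (Subgroup.inv_mem _ (hHB h6)) hb₃, ?_⟩
      conv_lhs => rw [e2]
      group

end Cfsg.Agent.Lib.Helper36.Stu
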