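import Cfsg.Agent.Lib.Helper36.Stu.CDefs

/-!
# Project STU: multiplicativity along left-reduced words (package CM)
-/

set_option autoImplicit false

namespace Cfsg.Agent.Lib.Helper36.Stu

open Cfsg Cfsg.Lie Cfsg.Agent.Lib.Helper18 Cfsg.Agent.Lib.Helper36

universe u

theorem pkgCM_aux : PkgCM.{u} := by
  intro F _ _ D hD φ hφ l
  classical
  have hUG : D.posUnipotent F ≤ D.group F := posUnipotent_le_group D hD
  have hYU : ∀ i : Fin D.rank, uComp (F := F) D i ≤ D.posUnipotent F := by
    intro i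
    unfold uComp
    rw [Subgroup.closure_le]
    rintro g ⟨s, t, hs, _, e⟩
    exact Subgroup.subset_closure ⟨s, t, hs, e⟩
  induction l with
  | nil =>
    intro _
    have h1 : nW (F := F) D hD [] = 1 := rfl
    rw [h1, List.map_nil, List.prod_nil]
    exact hφ.one
  | cons a l ih =>
    intro hl
    have hl2 : D.IsPosRoot (wordF D l.reverse (D.simple a)) ∧ LRed D l := hl
    obtain ⟨hpos, hl'⟩ := hl2
    rw [nW_cons, List.map_cons, List.prod_cons, ← ih hl']
    have hnG := Cfsg.Agent.Lib.Helper36.nU_mem_group (F := F) D hD a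
    have hlG := nW_mem_group (F := F) D hD l
    have hfe := hφ.fe _ hnG _ hlG
    have hterm : ∀ u : ↥(D.posUnipotent F),
        φ (Cfsg.Agent.Lib.Helper36.nU D hD a * (u : GL D.Idx F) * nW D hD l) =
        φ (Cfsg.Agent.Lib.Helper36.nU D hD a * nW D hD l) := by
      intro u
      obtain ⟨y, hy, t, e⟩ := exists_uComp_mul D hD a (u : GL D.Idx F) u.2
      obtain ⟨t', ht'⟩ := nW_inv_conj_xU D hD l (D.simple a) (simple_lt D hD a a.isLt) t
      have h1 := conj_mem_of_mem_normalizer (uComp (F := F) D a)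
        (Cfsg.Agent.Lib.Helper36.nU_mem_normalizer_uComp D hD a) hy
      have h2 : xU D hD (wordF D l.reverse (D.simple a)) t' ∈ D.posUnipotent F :=
        Subgroup.subset_closure ⟨_, t', hpos, coe_xU D hD _ t'⟩
      have e1 : Cfsg.Agent.Lib.Helper36.nU D hD a * (u : GL D.Idx F) * nW D hD l =
          (Cfsg.Agent.Lib.Helper36.nU D hD a * y * (Cfsg.Agent.Lib.Helper36.nU D hD a)⁻¹) *
          ((Cfsg.Agent.Lib.Helper36.nU D hD a * nW D hD l) *
            ((nW D hD l)⁻¹ * xU D hD (D.simple a) t * nW D hD l)) := by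
        rw [e]
        group
      rw [e1, ht', hφ.left _ (Subgroup.mul_mem _ (Subgroup.mul_mem _ hnG hlG) (hUG h2)) _
        (hYU a h1), hφ.right _ (Subgroup.mul_mem _ hnG hlG) _ h2]
    simp only [hterm] at hfe
    have hconst : ∑ᶠ _u : ↥(D.posUnipotent F),
        φ (Cfsg.Agent.Lib.Helper36.nU D hD a * nW D hD l) =
        (Nat.card ↥(D.posUnipotent F) : ℂ) *
          φ (Cfsg.Agent.Lib.Helper36.nU D hD a * nW D hD l) := by
      letI : Fintype ↥(D.posUnipotent F) := Fintype.ofFinite _
      rw [finsum_eq_sum_of_fintype, Finset.sum_const, Finset.card_univ, nsmul_eq_mul,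
        Nat.card_eq_fintype_card]
    rw [hconst] at hfe
    have hU0 : (Nat.card ↥(D.posUnipotent F) : ℂ) ≠ 0 := by
      have : 0 < Nat.card ↥(D.posUnipotent F) := Nat.card_pos
      exact_mod_cast this.ne'
    exact mul_left_cancel₀ hU0 hfe

end Cfsg.Agent.Lib.Helper36.Stu
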