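import Cfsg.Agent.Lib.Helper36.Stu.CDefs

/-!
# Project STU: the minimal parabolic subgroups (package CP)
-/

set_option autoImplicit false

namespace Cfsg.Agent.Lib.Helper36.Stu

open Cfsg Cfsg.Lie Cfsg.Agent.Lib.Helper18 Cfsg.Agent.Lib.Helper36

universe u

theorem pkgCP_aux : PkgCP.{u} := by
  intro F _ D hD j
  have hS := sgnOK_all D hD
  have hHB : D.diagonalSubgroup F ≤ D.borelSubgroup F := le_sup_right
  have hNj := Cfsg.Agent.Lib.Helper36.nU_mem_normalizer (F := F) D hD j
  have hlt := simple_lt D hD j j.isLt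
  have hnB : Cfsg.Agent.Lib.Helper36.nU (F := F) D hD j ∉ D.borelSubgroup F := by
    intro hmem
    have h1 := bruhat_word_unique (F := F) D hD [j] [] (Cfsg.Agent.Lib.Helper36.nU D hD j)⁻¹ 1
      (Subgroup.inv_mem _ hmem) (Subgroup.one_mem _) (by simp)
    have h2 : (nW (F := F) D hD [j])⁻¹ * nW D hD [] ∈ D.diagonalSubgroup F := h1
    have h3 := wd_neg D hD [j] [] h2 (D.simple j) hlt (by
      have e2 : wordF D [j] (D.simple j) = D.neg (D.simple j) := reflect_simple D j
      rw [e2]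
      exact Cfsg.Agent.Lib.Helper36.neg_neg_of_pos D hD _ (hS.pos_simple j j.isLt))
    exact hS.not_both _ ⟨hS.pos_simple j j.isLt, h3⟩
  refine ⟨hnB, ?_⟩
  intro x hx hxB
  obtain ⟨y, hy, m, hm, y', hy', e⟩ := par_decomp D hD _ x hx
  obtain ⟨h, hh, v, hv, e'⟩ := jclosure_word D hD _ m hm
  have hword : ∀ v : List (Fin D.rank), (∀ a ∈ v, (a : ℕ) ∈ ({(j : ℕ)} : Set ℕ)) →
      nW (F := F) D hD v ∈ D.diagonalSubgroup F ∨
      ∃ h' ∈ D.diagonalSubgroup F, nW (F := F) D hD v = h' * Cfsg.Agent.Lib.Helper36.nU D hD j := by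
    intro v
    induction v with
    | nil =>
      intro _
      left
      have : nW (F := F) D hD [] = 1 := rfl
      rw [this]
      exact Subgroup.one_mem _
    | cons a v ih =>
      intro hv
      have ha : a = j := Fin.ext (hv a (by simp))
      subst ha
      rw [nW_cons]
      rcases ih (fun b hb => hv b (by simp [hb])) with h1 | ⟨h', hh', e1⟩
      · right
        refine ⟨_, conj_mem_of_mem_normalizer _ hNj h1, ?_⟩
        group
      · left
        rw [e1]
        have e2 : Cfsg.Agent.Lib.Helper36.nU D hD a * (h' * Cfsg.Agent.Lib.Helper36.nU D hD a) =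
            (Cfsg.Agent.Lib.Helper36.nU D hD a * h' * (Cfsg.Agent.Lib.Helper36.nU D hD a)⁻¹) *
            (Cfsg.Agent.Lib.Helper36.nU D hD a * Cfsg.Agent.Lib.Helper36.nU D hD a) := by group
        rw [e2]
        exact Subgroup.mul_mem _ (conj_mem_of_mem_normalizer _ hNj hh')
          (Cfsg.Agent.Lib.Helper36.nU_sq_mem D hD a)
  rcases hword v hv with h1 | ⟨h', hh', e1⟩
  · exfalso
    apply hxB
    rw [e, e']
    exact Subgroup.mul_mem _ (Subgroup.mul_mem _ hy (hHB (Subgroup.mul_mem _ hh h1))) hy'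
  · refine ⟨y * h * h', Subgroup.mul_mem _ (Subgroup.mul_mem _ hy (hHB hh)) (hHB hh'), y', hy', ?_⟩
    rw [e, e', e1]
    simp only [mul_assoc]

end Cfsg.Agent.Lib.Helper36.Stu
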