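import Cfsg.Agent.Lib.Helper36.Stu.CDefs

/-!
# Project STU: the rank one quadratic relation (package CQ)
-/

set_option autoImplicit false

namespace Cfsg.Agent.Lib.Helper36.Stu

open Cfsg Cfsg.Lie Cfsg.Agent.Lib.Helper18 Cfsg.Agent.Lib.Helper36

universe u

theorem sum_field_split {F : Type*} [Field F] [Fintype F] [DecidableEq F] (f : F → ℂ) :
    ∑ t : F, f t = f 0 + ∑ c : Fˣ, f (c : F) := by
  let ψ : Fˣ ↪ F := ⟨Units.val, Units.val_injective⟩
  have hmap : Finset.univ.map ψ = Finset.univ \ {0} := by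
    ext x
    simp only [Finset.mem_map, Finset.mem_univ, Function.Embedding.coeFn_mk, true_and,
      Finset.mem_sdiff, Finset.mem_singleton, ψ]
    constructor
    · rintro ⟨a, rfl⟩
      exact a.ne_zero
    · intro h
      exact ⟨Units.mk0 x h, rfl⟩
  rw [← Finset.sum_sdiff (Finset.subset_univ ({0} : Finset F)), Finset.sum_singleton, ← hmap,
    Finset.sum_map, add_comm]
  rfl

theorem pkgCQ_aux : PkgCQ.{u} := by
  intro hFib F _ _ D hD φ hφ i
  classical
  have hα : D.simple i < D.nroots := simple_lt D hD i i.isLt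
  have hS := sgnOK_all D hD
  have hpos : D.IsPosRoot (D.simple i) := hS.pos_simple i i.isLt
  have hUG : D.posUnipotent F ≤ D.group F := posUnipotent_le_group D hD
  have hBG : D.borelSubgroup F ≤ D.group F := borelSubgroup_le_group D hD
  have hHG : D.diagonalSubgroup F ≤ D.group F := fun h hh =>
    hBG (le_sup_right (a := D.posUnipotent F) hh)
  have hex : ∀ t : Fˣ, ∃ g : GL D.Idx F, g ∈ D.diagonalSubgroup F ∧
      (g : Matrix D.Idx D.Idx F) = D.hMat F (D.simple i) (t : F) :=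
    fun t => exists_hU D hD _ hα (t : F) t.ne_zero
  choose hC hCH hCmat using hex
  have hC1 : hC 1 = 1 := by
    apply Units.ext
    rw [hCmat, Units.val_one, Units.val_one, hMat_one D hD _ hα]
  refine ⟨hC, hCH, hCmat, hC1, ?_⟩
  have hnG := Cfsg.Agent.Lib.Helper36.nU_mem_group (F := F) D hD i
  have hnn := Cfsg.Agent.Lib.Helper36.nU_sq_mem (F := F) D hD i
  have hxU : ∀ t : F, xU D hD (D.simple i) t ∈ D.posUnipotent F := fun t =>
    Subgroup.subset_closure ⟨_, t, hpos, coe_xU D hD _ t⟩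
  have hYU : uComp (F := F) D i ≤ D.posUnipotent F := by
    unfold uComp
    rw [Subgroup.closure_le]
    rintro g ⟨s, t, hs, _, e⟩
    exact Subgroup.subset_closure ⟨s, t, hs, e⟩
  -- the fibration
  obtain ⟨hsum, hcard⟩ := hFib (G := GL D.Idx F) (D.posUnipotent F) (uComp (F := F) D i)
    (T := F) (fun t => xU D hD (D.simple i) t) hYU hxU
    (by
      intro u hu
      obtain ⟨u', hu', t, e⟩ := exists_uComp_mul D hD i u hu
      exact ⟨t, u', hu', e⟩)
    (by
      intro t t' y hy y' hy' e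
      have h1 : xU D hD (D.simple i) (t' + -t) ∈ uComp (F := F) D i := by
        have h2 : y'⁻¹ * y = xU D hD (D.simple i) t' * (xU D hD (D.simple i) t)⁻¹ := by
          rw [inv_mul_eq_iff_eq_mul, ← mul_assoc, ← e, mul_assoc, mul_inv_cancel, mul_one]
        rw [← xU_mul, ← xU_inv, ← h2]
        exact Subgroup.mul_mem _ (Subgroup.inv_mem _ hy') hy
      have h3 := eq_zero_of_xU_mem_uComp D hD i _ h1
      have h4 : t' = t := by
        have : t' - t = 0 := by rw [sub_eq_add_neg]; exact h3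
        exact sub_eq_zero.mp this
      exact h4.symm)
    (fun u => φ (Cfsg.Agent.Lib.Helper36.nU D hD i * u * Cfsg.Agent.Lib.Helper36.nU D hD i))
    (by
      intro y hy t
      show φ (Cfsg.Agent.Lib.Helper36.nU D hD i * (y * xU D hD (D.simple i) t) *
          Cfsg.Agent.Lib.Helper36.nU D hD i) =
        φ (Cfsg.Agent.Lib.Helper36.nU D hD i * xU D hD (D.simple i) t *
          Cfsg.Agent.Lib.Helper36.nU D hD i)
      have h1 := conj_mem_of_mem_normalizer (uComp (F := F) D i)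
        (Cfsg.Agent.Lib.Helper36.nU_mem_normalizer_uComp D hD i) hy
      have e1 : Cfsg.Agent.Lib.Helper36.nU D hD i * (y * xU D hD (D.simple i) t) *
          Cfsg.Agent.Lib.Helper36.nU D hD i =
          (Cfsg.Agent.Lib.Helper36.nU D hD i * y * (Cfsg.Agent.Lib.Helper36.nU D hD i)⁻¹) *
          (Cfsg.Agent.Lib.Helper36.nU D hD i * xU D hD (D.simple i) t *
            Cfsg.Agent.Lib.Helper36.nU D hD i) := by group
      rw [e1, hφ.left _ (Subgroup.mul_mem _ (Subgroup.mul_mem _ hnG (hUG (hxU t))) hnG) _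
        (hYU h1)])
  have hfe := hφ.fe _ hnG _ hnG
  rw [hsum, hcard] at hfe
  have hY0 : (Nat.card ↥(uComp (F := F) D i) : ℂ) ≠ 0 := by
    have : 0 < Nat.card ↥(uComp (F := F) D i) := Nat.card_pos
    exact_mod_cast this.ne'
  have hmain : ∑ t : F, φ (Cfsg.Agent.Lib.Helper36.nU D hD i * xU D hD (D.simple i) t *
      Cfsg.Agent.Lib.Helper36.nU D hD i) =
      (Fintype.card F : ℂ) * (φ (Cfsg.Agent.Lib.Helper36.nU D hD i) *
        φ (Cfsg.Agent.Lib.Helper36.nU D hD i)) := by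
    apply mul_left_cancel₀ hY0
    rw [hfe]
    push_cast
    ring
  -- the conjugation sign
  obtain ⟨ηf, hsm⟩ := nU_smap (F := F) D hD i
  have hη : ηf (D.simple i) = 1 ∨ ηf (D.simple i) = -1 := hsm.sign _ hα
  have hη0 : ηf (D.simple i) ≠ 0 := by
    rcases hη with h | h <;> rw [h] <;> simp
  have hconj : ∀ t : F, Cfsg.Agent.Lib.Helper36.nU D hD i * xU D hD (D.simple i) t =
      xU D hD (D.neg (D.simple i)) (ηf (D.simple i) * t) * Cfsg.Agent.Lib.Helper36.nU D hD i := by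
    intro t
    apply Units.ext
    have h1 := hsm.conj _ hα t
    rw [reflect_simple] at h1
    rw [Units.val_mul, Units.val_mul, coe_xU, coe_xU]
    exact h1
  -- `x_{-α}(s) = x_α(s⁻¹) h(-s⁻¹) n x_α(s⁻¹)`
  have hneg : ∀ s : Fˣ, xU D hD (D.neg (D.simple i)) (s : F) =
      xU D hD (D.simple i) (s : F)⁻¹ * (hC (-s⁻¹) * Cfsg.Agent.Lib.Helper36.nU D hD i) *
        xU D hD (D.simple i) (s : F)⁻¹ := by
    intro s
    apply Units.ext
    rw [Units.val_mul, Units.val_mul, Units.val_mul, coe_xU, coe_xU, hCmat,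
      Cfsg.Agent.Lib.Helper36.coe_nU, ← nMat_eq_hMat_mul D hD _ hα, nMat_eq_mul]
    have e1 : ((-s⁻¹ : Fˣ) : F) = -(s : F)⁻¹ := by
      rw [Units.val_neg, Units.val_inv_eq_inv_val]
    have e2 : -(-(s : F)⁻¹)⁻¹ = (s : F) := by
      rw [inv_neg, inv_inv, neg_neg]
    rw [e1, e2]
    have e3 : D.x F (D.simple i) (s : F)⁻¹ * D.x F (D.simple i) (-(s : F)⁻¹) = 1 := by
      rw [x_add D hD, add_neg_cancel, Cfsg.Agent.Lib.Helper36.x_zero]
    have e4 : D.x F (D.simple i) (-(s : F)⁻¹) * D.x F (D.simple i) (s : F)⁻¹ = 1 := by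
      rw [x_add D hD, neg_add_cancel, Cfsg.Agent.Lib.Helper36.x_zero]
    calc D.x F (D.neg (D.simple i)) (s : F)
        = (D.x F (D.simple i) (s : F)⁻¹ * D.x F (D.simple i) (-(s : F)⁻¹)) *
          D.x F (D.neg (D.simple i)) (s : F) *
          (D.x F (D.simple i) (-(s : F)⁻¹) * D.x F (D.simple i) (s : F)⁻¹) := by
          rw [e3, e4, one_mul, mul_one]
      _ = _ := by simp only [mul_assoc]
  -- the unit `η`
  let ηu : Fˣ := Units.mk0 _ hη0
  have hterm : ∀ c : Fˣ, φ (Cfsg.Agent.Lib.Helper36.nU D hD i * xU D hD (D.simple i) (c : F) *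
      Cfsg.Agent.Lib.Helper36.nU D hD i) =
      φ (hC (-(ηu * c)⁻¹)) * (φ (Cfsg.Agent.Lib.Helper36.nU D hD i) *
        φ (Cfsg.Agent.Lib.Helper36.nU D hD i * Cfsg.Agent.Lib.Helper36.nU D hD i)) := by
    intro c
    have h1 := hneg (ηu * c)
    have h2 : ((ηu * c : Fˣ) : F) = ηf (D.simple i) * (c : F) := by
      rw [Units.val_mul]
      rfl
    rw [h2] at h1
    have hu1 := hxU (ηf (D.simple i) * (c : F))⁻¹
    have e1 : Cfsg.Agent.Lib.Helper36.nU D hD i * xU D hD (D.simple i) (c : F) *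
        Cfsg.Agent.Lib.Helper36.nU D hD i =
        xU D hD (D.simple i) (ηf (D.simple i) * (c : F))⁻¹ *
        (hC (-(ηu * c)⁻¹) * ((Cfsg.Agent.Lib.Helper36.nU D hD i *
          xU D hD (D.simple i) (ηf (D.simple i) * (c : F))⁻¹) *
          (Cfsg.Agent.Lib.Helper36.nU D hD i * Cfsg.Agent.Lib.Helper36.nU D hD i))) := by
      rw [hconj, h1]
      simp only [mul_assoc]
    have hm1 : Cfsg.Agent.Lib.Helper36.nU D hD i *
        xU D hD (D.simple i) (ηf (D.simple i) * (c : F))⁻¹ ∈ D.group F :=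
      Subgroup.mul_mem _ hnG (hUG hu1)
    have hm2 : Cfsg.Agent.Lib.Helper36.nU D hD i *
        xU D hD (D.simple i) (ηf (D.simple i) * (c : F))⁻¹ *
        (Cfsg.Agent.Lib.Helper36.nU D hD i * Cfsg.Agent.Lib.Helper36.nU D hD i) ∈ D.group F :=
      Subgroup.mul_mem _ hm1 (Subgroup.mul_mem _ hnG hnG)
    rw [e1, hφ.left _ (Subgroup.mul_mem _ (hHG (hCH _)) hm2) _ hu1,
      hφ.hl _ (hCH _) _ hm2, hφ.hr _ hnn _ hm1, hφ.right _ hnG _ hu1]
  -- reindexing
  let e : Fˣ ≃ Fˣ := (Equiv.mulLeft ηu).trans ((Equiv.inv Fˣ).trans (Equiv.neg Fˣ))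
  have he : ∀ c : Fˣ, e c = -(ηu * c)⁻¹ := fun c => rfl
  have hre : ∑ c : Fˣ, φ (hC (-(ηu * c)⁻¹)) = ∑ c : Fˣ, φ (hC c) := by
    have := Equiv.sum_comp e (fun c => φ (hC c))
    simpa only [he] using this
  rw [sum_field_split, xU_zero, mul_one] at hmain
  rw [finsum_eq_sum_of_fintype, pow_two, ← hmain]
  simp only [hterm]
  rw [← Finset.sum_mul, hre]
  ring

end Cfsg.Agent.Lib.Helper36.Stu
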