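import Cfsg.Agent.Lib.Helper36.Stu.CDefs

/-!
# Project STU: left-reduced decomposition (package CR)
-/

set_option autoImplicit false

namespace Cfsg.Agent.Lib.Helper36.Stu

open Cfsg Cfsg.Lie Cfsg.Agent.Lib.Helper18 Cfsg.Agent.Lib.Helper36

universe u

theorem lred_exists {F : Type u} [Field F] (D : ChevalleyDatum)
    (hD : D ∈ [chevG2, chevB2, chevD4, chevF4, chevE6, chevE7, chevE8]) :
    ∀ (k : ℕ) (l : List (Fin D.rank)), l.length ≤ k →
      ∃ l' : List (Fin D.rank), LRed D l' ∧ l'.length ≤ l.length ∧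
        ∃ h ∈ D.diagonalSubgroup F, nW (F := F) D hD l = h * nW D hD l' := by
  have hS := sgnOK_all D hD
  intro k
  induction k with
  | zero =>
    intro l hl
    have : l = [] := List.length_eq_zero_iff.mp (Nat.le_zero.mp hl)
    subst this
    exact ⟨[], trivial, le_refl _, 1, Subgroup.one_mem _, (one_mul _).symm⟩
  | succ k ih =>
    intro l hl
    cases l with
    | nil => exact ⟨[], trivial, le_refl _, 1, Subgroup.one_mem _, (one_mul _).symm⟩
    | cons a l₀ =>
      have hl₀ : l₀.length ≤ k := by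
        rw [List.length_cons] at hl
        omega
      obtain ⟨l₀', hred, hlen, h₀, hh₀, e₀⟩ := ih l₀ hl₀
      have hNa := Cfsg.Agent.Lib.Helper36.nU_mem_normalizer (F := F) D hD a
      have h1 := conj_mem_of_mem_normalizer _ hNa hh₀
      have e1 : nW (F := F) D hD (a :: l₀) =
          (Cfsg.Agent.Lib.Helper36.nU D hD a * h₀ * (Cfsg.Agent.Lib.Helper36.nU D hD a)⁻¹) *
            nW D hD (a :: l₀') := by
        rw [nW_cons, nW_cons, e₀]
        group
      have hlt := simple_lt D hD a a.isLt
      rcases hS.pos_or_neg _ (wordF_lt D hD l₀'.reverse _ hlt) with hpos | hneg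
      · refine ⟨a :: l₀', ⟨hpos, hred⟩, ?_, _, h1, e1⟩
        rw [List.length_cons, List.length_cons]
        omega
      · obtain ⟨ε, hsm⟩ := word_smap (F := F) D hD l₀'.reverse
        have hpos' : D.IsPosRoot (wordF D (l₀'.reverse ++ [a]) (D.simple a)) := by
          rw [wordF_append]
          have e2 : wordF D [a] (D.simple a) = D.neg (D.simple a) := reflect_simple D a
          rw [e2, hsm.f_neg _ hlt]
          exact pos_neg_of_neg D hD _ hneg
        obtain ⟨l'', h₂, hh₂, hlen'', e3⟩ := word_reduce_sharp (F := F) D hD hS l₀'.reverse a hpos'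
        have e3' : nW (F := F) D hD (l₀'.reverse ++ [a]) = h₂ * nW D hD l'' := e3
        have hN'' := nW_mem_normalizer (F := F) D hD l''
        have hNi'' : (nW (F := F) D hD l'')⁻¹ ∈
            Subgroup.normalizer (D.diagonalSubgroup F : Set (GL D.Idx F)) :=
          Subgroup.inv_mem _ hN''
        have h4 := conj_mem_of_mem_normalizer _ hNi'' hh₂
        rw [inv_inv] at h4
        have h5 : (nW (F := F) D hD l'')⁻¹ * nW D hD (l₀'.reverse ++ [a]) ∈
            D.diagonalSubgroup F := by
          rw [e3', ← mul_assoc]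
          exact h4
        have h6 := rev_diag D hD l'' (l₀'.reverse ++ [a]) h5
        have e4 : (l₀'.reverse ++ [a]).reverse = a :: l₀' := by simp
        rw [e4] at h6
        have hlen3 : l''.reverse.length ≤ k := by
          rw [List.length_reverse]
          rw [List.length_append, List.length_reverse, List.length_singleton] at hlen''
          omega
        obtain ⟨l₃, hred₃, hlen₃, h₃, hh₃, e5⟩ := ih l''.reverse hlen3
        have hNr := nW_mem_normalizer (F := F) D hD l''.reverse
        have h7 := conj_mem_of_mem_normalizer _ hNr h6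
        refine ⟨l₃, hred₃, ?_, _, Subgroup.mul_mem _ (Subgroup.mul_mem _ h1 h7) hh₃, ?_⟩
        · rw [List.length_reverse] at hlen₃
          rw [List.length_append, List.length_reverse, List.length_singleton] at hlen''
          rw [List.length_cons]
          omega
        · rw [e1]
          have e6 : nW (F := F) D hD (a :: l₀') =
              (nW D hD l''.reverse * ((nW D hD l''.reverse)⁻¹ * nW D hD (a :: l₀')) *
                (nW D hD l''.reverse)⁻¹) * (h₃ * nW D hD l₃) := by
            rw [← e5]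
            group
          refine (congrArg (fun z => (Cfsg.Agent.Lib.Helper36.nU D hD a * h₀ *
            (Cfsg.Agent.Lib.Helper36.nU D hD a)⁻¹) * z) e6).trans ?_
          simp only [mul_assoc]

theorem pkgCR_aux : PkgCR.{u} := by
  intro F _ D hD g hg
  have hnormU := diagonalSubgroup_le_normalizer_posUnipotent (F := F) D hD
  obtain ⟨b₁, hb₁, l, b₂, hb₂, e⟩ := bruhat_word D hD g hg
  have e0 : g = b₁ * nW D hD l * b₂ := e
  obtain ⟨u₁, hu₁, h₁, hh₁, e₁⟩ := exists_mul_of_mem_sup (D.posUnipotent F)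
    (D.diagonalSubgroup F) hnormU b₁ hb₁
  obtain ⟨u₂, hu₂, h₂, hh₂, e₂⟩ := exists_mul_of_mem_sup (D.posUnipotent F)
    (D.diagonalSubgroup F) hnormU b₂⁻¹ (Subgroup.inv_mem _ hb₂)
  have e₂' : b₂ = h₂⁻¹ * u₂⁻¹ := by
    rw [← mul_inv_rev, ← e₂, inv_inv]
  obtain ⟨l', hred, _, h, hh, e3⟩ := lred_exists (F := F) D hD l.length l (le_refl _)
  have hN := nW_mem_normalizer (F := F) D hD l'
  have h4 := conj_mem_of_mem_normalizer _ hN (Subgroup.inv_mem _ hh₂)
  refine ⟨u₁, hu₁, h₁ * h * (nW D hD l' * h₂⁻¹ * (nW D hD l')⁻¹),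
    Subgroup.mul_mem _ (Subgroup.mul_mem _ hh₁ hh) h4, l', hred, u₂⁻¹,
    Subgroup.inv_mem _ hu₂, ?_⟩
  rw [e0, e₁, e₂', e3]
  group

end Cfsg.Agent.Lib.Helper36.Stu
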