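import Cfsg.Agent.Lib.Helper36.Stu.CDefs

/-!
# Project STU: the Steinberg character sums to zero over the minimal parabolics (package CS1)
-/

set_option autoImplicit false

namespace Cfsg.Agent.Lib.Helper36.Stu

open Cfsg Cfsg.Lie Cfsg.Agent.Lib.Helper18 Cfsg.Agent.Lib.Helper36

universe u

theorem pkgCS1_aux : PkgCS1.{u} := by
  intro hFrob F _ _ D hD j0
  classical
  have hS := sgnOK_all D hD
  have hBG : D.borelSubgroup F ≤ D.group F := borelSubgroup_le_group D hD
  have hHB : D.diagonalSubgroup F ≤ D.borelSubgroup F := le_sup_right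
  haveI : Finite ↥(D.group F) := inferInstance
  haveI : Fintype ↥(D.group F) := Fintype.ofFinite _
  obtain ⟨W, hW⟩ : ∃ W : Finset (List (Fin D.rank)), ∀ l, l ∈ W ↔ l ∈ wSet D hD F :=
    ⟨(Set.finite_range (fun g : ↥(D.group F) =>
      repW (F := F) D hD (dcs D F (g : GL D.Idx F)))).toFinset, fun l => Set.Finite.mem_toFinset _⟩
  let n : List (Fin D.rank) → ↥(D.group F) := fun l => ⟨nW D hD l, nW_mem_group D hD l⟩
  let ascR : List (Fin D.rank) → Finset ℕ := fun l =>
    (Finset.range D.rank).filter (fun j => D.IsPosRoot (wordF D l (D.simple j)))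
  let ascL : List (Fin D.rank) → Finset ℕ := fun l =>
    (Finset.range D.rank).filter (fun j => D.IsPosRoot (wordF D l.reverse (D.simple j)))
  have hascR : ∀ (J : Finset ℕ), J ⊆ Finset.range D.rank → ∀ l,
      (J ⊆ ascR l ↔ DJ D (↑J : Set ℕ) l) := by
    intro J hJ l
    constructor
    · intro h j hj _
      exact (Finset.mem_filter.mp (h hj)).2
    · intro h j hj
      exact Finset.mem_filter.mpr ⟨hJ hj, h j hj (Finset.mem_range.mp (hJ hj))⟩
  have hascL : ∀ (J : Finset ℕ), J ⊆ Finset.range D.rank → ∀ l,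
      (J ⊆ ascL l ↔ DJ D (↑J : Set ℕ) l.reverse) := by
    intro J hJ l
    constructor
    · intro h j hj _
      exact (Finset.mem_filter.mp (h hj)).2
    · intro h j hj
      exact Finset.mem_filter.mpr ⟨hJ hj, h j hj (Finset.mem_range.mp (hJ hj))⟩
  have hc : ∀ J ∈ (Finset.range D.rank).powerset, ∀ K ∈ (Finset.range D.rank).powerset,
      (Nat.card ↥(D.group F) : ℂ)⁻¹ * ∑ x : ↥(D.group F),
        Cfsg.fixedPointCharacter (D.parabolicIn F J) x *
          Cfsg.fixedPointCharacter (D.parabolicIn F K) x =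
      (((W.filter (fun w => J ⊆ ascL w ∧ K ⊆ ascR w)).card : ℕ) : ℂ) := by
    intro J hJ K hK
    have hJ' := Finset.mem_powerset.mp hJ
    have hK' := Finset.mem_powerset.mp hK
    have hBK : D.borelSubgroup F ≤ D.parabolicSubgroup F (↑K : Set ℕ) := le_sup_left
    refine Cfsg.Agent.Lib.Helper61.Sti.pkgDc (D.parabolicIn F J) (D.parabolicIn F K)
      (W.filter (fun w => J ⊆ ascL w ∧ K ⊆ ascR w)) n ?_ ?_
    · intro g
      obtain ⟨d, hd, hdr, p, hp, p', hp', e⟩ :=
        dd_exists D hD (↑J : Set ℕ) (↑K : Set ℕ) g.1 g.2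
      obtain ⟨ls, hls, c₁, hc₁, c₂, hc₂, e''⟩ := wSet_exists D hD (nW (F := F) D hD d)
        (nW_mem_group D hD d)
      have hH := bruhat_word_unique D hD d ls c₁ c₂ hc₁ hc₂ e''
      have hdj : DJ D (↑K : Set ℕ) ls := fun j hj hjr =>
        wd_pos D hD d ls hH _ (simple_lt D hD j hjr) (hd j hj hjr)
      have hdjr : DJ D (↑J : Set ℕ) ls.reverse := fun j hj hjr =>
        wd_pos D hD d.reverse ls.reverse (rev_diag D hD d ls hH) _ (simple_lt D hD j hjr)
          (hdr j hj hjr)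
      have hkP : ((nW (F := F) D hD d)⁻¹ * nW D hD ls)⁻¹ * p' ∈
          D.parabolicSubgroup F (↑K : Set ℕ) :=
        Subgroup.mul_mem _ (Subgroup.inv_mem _ (hBK (hHB hH))) hp'
      refine ⟨ls, Finset.mem_filter.mpr ⟨(hW ls).mpr hls, (hascL J hJ' ls).mpr hdjr,
        (hascR K hK' ls).mpr hdj⟩, ⟨p, parabolic_le_group D hD _ hp⟩, ?_,
        ⟨((nW (F := F) D hD d)⁻¹ * nW D hD ls)⁻¹ * p', parabolic_le_group D hD _ hkP⟩, ?_, ?_⟩
      · show _ ∈ (D.parabolicSubgroup F (↑J : Set ℕ)).subgroupOf (D.group F)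
        rw [Subgroup.mem_subgroupOf]
        exact hp
      · show _ ∈ (D.parabolicSubgroup F (↑K : Set ℕ)).subgroupOf (D.group F)
        rw [Subgroup.mem_subgroupOf]
        exact hkP
      · apply Subtype.ext
        show (g : GL D.Idx F) = p * nW D hD ls * (((nW (F := F) D hD d)⁻¹ * nW D hD ls)⁻¹ * p')
        rw [e]
        group
    · rintro w hw w' hw' ⟨h, hh, k, hk, e⟩
      rw [Finset.mem_filter] at hw hw'
      have hh' : (h : GL D.Idx F) ∈ D.parabolicSubgroup F (↑J : Set ℕ) :=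
        Subgroup.mem_subgroupOf.mp hh
      have hk' : (k : GL D.Idx F) ∈ D.parabolicSubgroup F (↑K : Set ℕ) :=
        Subgroup.mem_subgroupOf.mp hk
      have h1 := dd_unique D hD (↑J : Set ℕ) (↑K : Set ℕ) w w' ((hascR K hK' w).mp hw.2.2)
        ((hascR K hK' w').mp hw'.2.2) ((hascL J hJ' w).mp hw.2.1) ((hascL J hJ' w').mp hw'.2.1)
        h.1 k.1 hh' hk' (congrArg Subtype.val e)
      exact wSet_unique D hD w w' ((hW w).mp hw.1) ((hW w').mp hw'.1) h1
  obtain ⟨l0, hl0⟩ := exists_long D hD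
  obtain ⟨w0, hw0, c₁, hc₁, c₂, hc₂, e0⟩ := wSet_exists D hD (nW (F := F) D hD l0)
    (nW_mem_group D hD l0)
  have hH0 := bruhat_word_unique D hD l0 w0 c₁ c₂ hc₁ hc₂ e0
  have hw0neg : ∀ i : Fin D.rank, D.IsNegRoot (wordF D w0 (D.simple i.val)) := fun i =>
    wd_neg D hD l0 w0 hH0 _ (simple_lt D hD i.val i.isLt) (hl0 i)
  have hasc1 : ∀ w ∈ W, ascR w = ∅ → w = w0 := by
    intro w hw hasc0
    have hneg : ∀ i : Fin D.rank, D.IsNegRoot (wordF D w (D.simple i.val)) := by
      intro i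
      rcases hS.pos_or_neg _ (wordF_lt D hD w _ (simple_lt D hD i.val i.isLt)) with h | h
      · exfalso
        have hmem : i.val ∈ ascR w := Finset.mem_filter.mpr ⟨Finset.mem_range.mpr i.isLt, h⟩
        rw [hasc0] at hmem
        exact absurd hmem (Finset.notMem_empty _)
      · exact h
    exact wSet_unique D hD w w0 ((hW w).mp hw) hw0 (long_unique D hD w w0 hneg hw0neg)
  have hasc2 : ascR w0 = ∅ := by
    apply Finset.filter_eq_empty_iff.mpr
    intro j hj hpos
    exact hS.not_both _ ⟨hpos, hw0neg ⟨j, Finset.mem_range.mp hj⟩⟩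
  have hasc3 : ascL w0 = ∅ := by
    apply Finset.filter_eq_empty_iff.mpr
    intro j hj hpos
    have hjr := Finset.mem_range.mp hj
    have h2 := word_neg_of_simple D hD w0 hw0neg _ hpos
    have h3 : wordF D w0 (wordF D w0.reverse (D.simple j)) = D.simple j := by
      have := wordF_reverse_cancel D hD w0.reverse _ (simple_lt D hD j hjr)
      rwa [List.reverse_reverse] at this
    rw [h3] at h2
    exact hS.not_both _ ⟨hS.pos_simple j hjr, h2⟩
  -- the alternating sum
  have halt := Cfsg.Agent.Lib.Helper25.Stb.pkgAlt W (Finset.range D.rank) ascR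
    (fun w => if ({(j0 : ℕ)} : Finset ℕ) ⊆ ascL w then (1 : ℂ) else 0) w0 ((hW w0).mpr hw0)
    (fun w _ => Finset.filter_subset _ _) hasc1 hasc2
  have hf0 : (if ({(j0 : ℕ)} : Finset ℕ) ⊆ ascL w0 then (1 : ℂ) else 0) = 0 := by
    rw [if_neg]
    rw [hasc3]
    intro h
    exact absurd (h (Finset.mem_singleton_self _)) (Finset.notMem_empty _)
  rw [hf0] at halt
  have hj0 : ({(j0 : ℕ)} : Finset ℕ) ∈ (Finset.range D.rank).powerset := by
    rw [Finset.mem_powerset, Finset.singleton_subset_iff]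
    exact Finset.mem_range.mpr j0.isLt
  have hG0 : (Nat.card ↥(D.group F) : ℂ) ≠ 0 := by
    have : 0 < Nat.card ↥(D.group F) := Nat.card_pos
    exact_mod_cast this.ne'
  -- the class function property
  obtain ⟨m, ρ, _, hρ⟩ := steinberg_irr (F := F) D hD
  have hcl : Cfsg.IsClassFunction ↥(D.group F) (D.steinbergCharacter F) :=
    Cfsg.Agent.Lib.Helper26.isClassFunction_of_isCharacter ⟨m, ρ, hρ⟩
  have hfrob := hFrob (D.parabolicIn F {(j0 : ℕ)}) (D.steinbergCharacter F) hcl
  have hlhs : ∑ᶠ x : ↥(D.group F),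
      Cfsg.fixedPointCharacter (D.parabolicIn F {(j0 : ℕ)}) x * D.steinbergCharacter F x = 0 := by
    rw [finsum_eq_sum_of_fintype]
    have h1 : ∀ x : ↥(D.group F),
        Cfsg.fixedPointCharacter (D.parabolicIn F {(j0 : ℕ)}) x * D.steinbergCharacter F x =
        ∑ K ∈ (Finset.range D.rank).powerset, (-1 : ℂ) ^ K.card *
          (Cfsg.fixedPointCharacter (D.parabolicIn F {(j0 : ℕ)}) x *
            Cfsg.fixedPointCharacter (D.parabolicIn F K) x) := by
      intro x
      unfold ChevalleyDatum.steinbergCharacter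
      rw [Finset.mul_sum]
      apply Finset.sum_congr rfl
      intro K _
      ring
    simp_rw [h1]
    rw [Finset.sum_comm]
    have h2 : ∀ K ∈ (Finset.range D.rank).powerset,
        ∑ x : ↥(D.group F), (-1 : ℂ) ^ K.card *
          (Cfsg.fixedPointCharacter (D.parabolicIn F {(j0 : ℕ)}) x *
            Cfsg.fixedPointCharacter (D.parabolicIn F K) x) =
        (Nat.card ↥(D.group F) : ℂ) * ((-1 : ℂ) ^ K.card *
          (∑ w ∈ W.filter (fun w => K ⊆ ascR w),
            (if ({(j0 : ℕ)} : Finset ℕ) ⊆ ascL w then (1 : ℂ) else 0))) := by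
      intro K hK
      have h3 := hc {(j0 : ℕ)} hj0 K hK
      rw [← Finset.mul_sum]
      have h4 : ∑ x : ↥(D.group F), Cfsg.fixedPointCharacter (D.parabolicIn F {(j0 : ℕ)}) x *
            Cfsg.fixedPointCharacter (D.parabolicIn F K) x =
          (Nat.card ↥(D.group F) : ℂ) *
            (((W.filter (fun w => ({(j0 : ℕ)} : Finset ℕ) ⊆ ascL w ∧ K ⊆ ascR w)).card : ℕ) : ℂ) := by
        rw [← h3, ← mul_assoc, mul_inv_cancel₀ hG0, one_mul]
      rw [h4, Finset.sum_boole, Finset.filter_filter]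
      have h5 : W.filter (fun w => K ⊆ ascR w ∧ ({(j0 : ℕ)} : Finset ℕ) ⊆ ascL w) =
          W.filter (fun w => ({(j0 : ℕ)} : Finset ℕ) ⊆ ascL w ∧ K ⊆ ascR w) := by
        apply Finset.filter_congr
        intro w _
        exact and_comm
      rw [h5]
      ring
    rw [Finset.sum_congr rfl h2, ← Finset.mul_sum, halt, mul_zero]
  rw [hlhs] at hfrob
  have hidx : ((D.parabolicIn F {(j0 : ℕ)}).index : ℂ) ≠ 0 := by
    have : (D.parabolicIn F {(j0 : ℕ)}).index ≠ 0 := Subgroup.index_ne_zero_of_finite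
    exact_mod_cast this
  rcases mul_eq_zero.mp hfrob.symm with h | h
  · exact absurd h hidx
  · exact h

end Cfsg.Agent.Lib.Helper36.Stu
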