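import Cfsg.Agent.Lib.Helper36.Stu.CDefs

/-!
# Project STU: the spherical function of the Steinberg character on the torus (package CS2)
-/

set_option autoImplicit false

namespace Cfsg.Agent.Lib.Helper36.Stu

open Cfsg Cfsg.Lie Cfsg.Agent.Lib.Helper18 Cfsg.Agent.Lib.Helper36

universe u

theorem all_one_of_sum {T : Type*} [Fintype T] (z : T → ℂ) (hz : ∀ t, ‖z t‖ = 1)
    (hsum : ∑ t, z t = (Fintype.card T : ℂ)) : ∀ t, z t = 1 := by
  have hre : ∀ t, (z t).re ≤ 1 := fun t => (Complex.re_le_norm (z t)).trans (hz t).le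
  have hsumre : ∑ t, (z t).re = (Fintype.card T : ℝ) := by
    have := congrArg Complex.re hsum
    simpa [Complex.re_sum] using this
  have hall : ∀ t, (z t).re = 1 := by
    by_contra hcon
    push_neg at hcon
    obtain ⟨t₀, ht₀⟩ := hcon
    have hlt : (z t₀).re < 1 := lt_of_le_of_ne (hre t₀) ht₀
    have h1 : ∑ t, (z t).re < ∑ _t : T, (1 : ℝ) :=
      Finset.sum_lt_sum (fun t _ => hre t) ⟨t₀, Finset.mem_univ _, hlt⟩
    rw [hsumre] at h1
    simp at h1
  intro t
  have h1 := hall t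
  have h3 : (z t).re ^ 2 + (z t).im ^ 2 = 1 := by
    have h4 := Complex.sq_norm (z t)
    rw [Complex.normSq_apply, hz t] at h4
    nlinarith
  have h4 : (z t).im = 0 := by
    rw [h1] at h3
    nlinarith
  exact Complex.ext (by rw [h1]; rfl) (by rw [h4]; rfl)

theorem pkgCS2_aux : PkgCS2.{u} := by
  intro hBurn F _ _ D hD hnorm
  classical
  haveI : Finite ↥(D.group F) := inferInstance
  have hUG : D.posUnipotent F ≤ D.group F := posUnipotent_le_group D hD
  have hBG : D.borelSubgroup F ≤ D.group F := borelSubgroup_le_group D hD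
  have hHB : D.diagonalSubgroup F ≤ D.borelSubgroup F := le_sup_right
  have hUB : D.posUnipotent F ≤ D.borelSubgroup F := le_sup_left
  have hHG : D.diagonalSubgroup F ≤ D.group F := hHB.trans hBG
  have hnormU := diagonalSubgroup_le_normalizer_posUnipotent (F := F) D hD
  -- the three subgroups of the group
  obtain ⟨UGr, hUGr⟩ : ∃ X : Subgroup ↥(D.group F), X = (D.posUnipotent F).subgroupOf (D.group F) :=
    ⟨_, rfl⟩
  obtain ⟨BGr, hBGr⟩ : ∃ X : Subgroup ↥(D.group F),
      X = (D.borelSubgroup F).subgroupOf (D.group F) := ⟨_, rfl⟩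
  obtain ⟨HGr, hHGr⟩ : ∃ X : Subgroup ↥(D.group F),
      X = (D.diagonalSubgroup F).subgroupOf (D.group F) := ⟨_, rfl⟩
  have hmU : ∀ x : ↥(D.group F), x ∈ UGr ↔ (x : GL D.Idx F) ∈ D.posUnipotent F := by
    intro x; rw [hUGr, Subgroup.mem_subgroupOf]
  have hmB : ∀ x : ↥(D.group F), x ∈ BGr ↔ (x : GL D.Idx F) ∈ D.borelSubgroup F := by
    intro x; rw [hBGr, Subgroup.mem_subgroupOf]
  have hmH : ∀ x : ↥(D.group F), x ∈ HGr ↔ (x : GL D.Idx F) ∈ D.diagonalSubgroup F := by
    intro x; rw [hHGr, Subgroup.mem_subgroupOf]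
  letI : Fintype ↥UGr := Fintype.ofFinite _
  letI : Fintype ↥BGr := Fintype.ofFinite _
  letI : Fintype ↥HGr := Fintype.ofFinite _
  -- the sum over `B`
  have hsumB : ∑ b : ↥BGr, D.steinbergCharacter F (b : ↥(D.group F)) = (Nat.card ↥BGr : ℂ) := by
    subst hBGr
    have h1 := hBurn (G := ↥((D.borelSubgroup F).subgroupOf (D.group F)))
      (((D.diagonalSubgroup F).subgroupOf (D.group F)).subgroupOf
        ((D.borelSubgroup F).subgroupOf (D.group F)))
    rw [finsum_eq_sum_of_fintype] at h1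
    rw [← h1]
    exact Finset.sum_congr rfl (fun b _ => steinberg_restrict (F := F) D hD b)
  -- the bijection `H × U ≃ B`
  have hbij : Function.Bijective (fun p : ↥HGr × ↥UGr =>
      (⟨(p.1 : ↥(D.group F)) * (p.2 : ↥(D.group F)),
        (hmB _).mpr (Subgroup.mul_mem _ (hHB ((hmH _).mp p.1.2)) (hUB ((hmU _).mp p.2.2)))⟩ :
        ↥BGr)) := by
    constructor
    · rintro ⟨t, v⟩ ⟨t', v'⟩ e
      have e1 : (t : ↥(D.group F)) * (v : ↥(D.group F)) = (t' : ↥(D.group F)) * (v' : ↥(D.group F)) :=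
        congrArg Subtype.val e
      have e2 : ((t' : ↥(D.group F)) : GL D.Idx F)⁻¹ * ((t : ↥(D.group F)) : GL D.Idx F) =
          ((v' : ↥(D.group F)) : GL D.Idx F) * ((v : ↥(D.group F)) : GL D.Idx F)⁻¹ := by
        have e3 := congrArg Subtype.val e1
        simp only [Subgroup.coe_mul] at e3
        rw [inv_mul_eq_iff_eq_mul, ← mul_assoc, ← e3, mul_assoc, mul_inv_cancel, mul_one]
      have h1 : ((t' : ↥(D.group F)) : GL D.Idx F)⁻¹ * ((t : ↥(D.group F)) : GL D.Idx F) ∈
          D.posUnipotent F ⊓ D.monomialSubgroup F := by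
        refine ⟨?_, (le_sup_left : D.diagonalSubgroup F ≤ D.monomialSubgroup F)
          (Subgroup.mul_mem _ (Subgroup.inv_mem _ ((hmH _).mp t'.2)) ((hmH _).mp t.2))⟩
        rw [e2]
        exact Subgroup.mul_mem _ ((hmU _).mp v'.2) (Subgroup.inv_mem _ ((hmU _).mp v.2))
      rw [(Cfsg.Agent.S1040.result D hD).1] at h1
      have h2 := Subgroup.mem_bot.mp h1
      have h3 : ((t : ↥(D.group F)) : GL D.Idx F) = ((t' : ↥(D.group F)) : GL D.Idx F) := by
        rw [inv_mul_eq_one] at h2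
        exact h2.symm
      have h4 : t = t' := Subtype.ext (Subtype.ext h3)
      subst h4
      have h5 : (v : ↥(D.group F)) = (v' : ↥(D.group F)) := mul_left_cancel e1
      rw [Subtype.ext h5]
    · intro b
      have hb : ((b : ↥(D.group F)) : GL D.Idx F)⁻¹ ∈ D.borelSubgroup F :=
        Subgroup.inv_mem _ ((hmB _).mp b.2)
      obtain ⟨v, hv, t, ht, e⟩ := exists_mul_of_mem_sup (D.posUnipotent F)
        (D.diagonalSubgroup F) hnormU _ hb
      have e' : ((b : ↥(D.group F)) : GL D.Idx F) = t⁻¹ * v⁻¹ := by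
        rw [← mul_inv_rev, ← e, inv_inv]
      refine ⟨⟨⟨⟨t⁻¹, hHG (Subgroup.inv_mem _ ht)⟩, (hmH _).mpr (Subgroup.inv_mem _ ht)⟩,
        ⟨⟨v⁻¹, hUG (Subgroup.inv_mem _ hv)⟩, (hmU _).mpr (Subgroup.inv_mem _ hv)⟩⟩, ?_⟩
      apply Subtype.ext
      apply Subtype.ext
      exact e'.symm
  have hcardB : Nat.card ↥BGr = Nat.card ↥HGr * Nat.card ↥UGr := by
    rw [← Nat.card_prod]
    exact (Nat.card_congr (Equiv.ofBijective _ hbij)).symm
  have hU0 : (Nat.card ↥UGr : ℂ) ≠ 0 := by
    have : 0 < Nat.card ↥UGr := Nat.card_pos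
    exact_mod_cast this.ne'
  -- the sum of the spherical function over `H`
  have hsumH : ∑ t : ↥HGr, sph UGr (D.steinbergCharacter F) (t : ↥(D.group F)) =
      (Fintype.card ↥HGr : ℂ) := by
    have h1 : ∑ b : ↥BGr, D.steinbergCharacter F (b : ↥(D.group F)) =
        ∑ p : ↥HGr × ↥UGr, D.steinbergCharacter F ((p.1 : ↥(D.group F)) * (p.2 : ↥(D.group F))) :=
      (Equiv.sum_comp (Equiv.ofBijective _ hbij)
        (fun b : ↥BGr => D.steinbergCharacter F (b : ↥(D.group F)))).symm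
    rw [Fintype.sum_prod_type] at h1
    have h2 : ∀ t : ↥HGr, ∑ v : ↥UGr,
        D.steinbergCharacter F ((t : ↥(D.group F)) * (v : ↥(D.group F))) =
        (Nat.card ↥UGr : ℂ) * sph UGr (D.steinbergCharacter F) (t : ↥(D.group F)) := by
      intro t
      unfold sph
      rw [finsum_eq_sum_of_fintype, ← mul_assoc, mul_inv_cancel₀ hU0, one_mul]
    rw [Finset.sum_congr rfl (fun t _ => h2 t), ← Finset.mul_sum, hsumB, hcardB] at h1
    have h3 : (Nat.card ↥UGr : ℂ) * (Nat.card ↥HGr : ℂ) = (Nat.card ↥UGr : ℂ) *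
        ∑ t : ↥HGr, sph UGr (D.steinbergCharacter F) (t : ↥(D.group F)) := by
      rw [← h1]
      push_cast
      ring
    rw [← mul_left_cancel₀ hU0 h3, Nat.card_eq_fintype_card]
  have hext : ∀ x : ↥(D.group F),
      ext D (sph UGr (D.steinbergCharacter F)) (x : GL D.Idx F) =
        sph UGr (D.steinbergCharacter F) x := by
    intro x
    unfold ext
    rw [dif_pos x.2]
  have hall := all_one_of_sum
    (fun t : ↥HGr => sph UGr (D.steinbergCharacter F) (t : ↥(D.group F)))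
    (fun t => by
      have := hnorm ((t : ↥(D.group F)) : GL D.Idx F) ((hmH _).mp t.2)
      rw [← hUGr, hext] at this
      exact this)
    hsumH
  intro h hh
  have h1 := hall ⟨⟨h, hHG hh⟩, (hmH _).mpr hh⟩
  rw [← hUGr]
  rw [← hext] at h1
  exact h1

end Cfsg.Agent.Lib.Helper36.Stu
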