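import Cfsg.Agent.Lib.Helper36.Stu.CDefs

/-!
# Project STU: the torus is generated by the fundamental coroot elements (package CT)
-/

set_option autoImplicit false

namespace Cfsg.Agent.Lib.Helper36.Stu

open Cfsg Cfsg.Lie Cfsg.Agent.Lib.Helper18 Cfsg.Agent.Lib.Helper36

universe u

/-- table check: the coroot of the `i`-th fundamental root is the `i`-th unit vector -/
def corOK (D : ChevalleyDatum) : Bool :=
  (List.range D.rank).all fun i => (List.range D.rank).all fun k =>
    decide ((D.coroot.getD (D.simple i) #[]).getD k 0 = if k = i then 1 else 0)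

theorem corOK_all (D : ChevalleyDatum)
    (hD : D ∈ [chevG2, chevB2, chevD4, chevF4, chevE6, chevE7, chevE8]) : corOK D = true := by
  simp only [List.mem_cons, List.not_mem_nil, or_false] at hD
  rcases hD with rfl | rfl | rfl | rfl | rfl | rfl | rfl <;> decide +kernel

theorem coroot_simple (D : ChevalleyDatum)
    (hD : D ∈ [chevG2, chevB2, chevD4, chevF4, chevE6, chevE7, chevE8]) (i k : ℕ)
    (hi : i < D.rank) (hk : k < D.rank) :
    (D.coroot.getD (D.simple i) #[]).getD k 0 = if k = i then 1 else 0 := by
  have h1 := corOK_all D hD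
  unfold corOK at h1
  rw [List.all_eq_true] at h1
  have h2 := h1 i (List.mem_range.mpr hi)
  rw [List.all_eq_true] at h2
  exact of_decide_eq_true (h2 k (List.mem_range.mpr hk))

theorem prod_range_single {F : Type*} [Field F] (a : F) (i : ℕ) (w : ℕ → ℤ) (n : ℕ) :
    ((List.range n).map (fun k => (if k = i then a else 1) ^ w k)).prod =
      if i < n then a ^ w i else 1 := by
  induction n with
  | zero => simp
  | succ n ih =>
    rw [List.range_succ, List.map_append, List.prod_append, ih]
    simp only [List.map_cons, List.map_nil, List.prod_cons, List.prod_nil, mul_one]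
    by_cases h1 : i < n
    · have h2 : ¬ n = i := by omega
      have h3 : i < n + 1 := by omega
      rw [if_pos h1, if_neg h2, if_pos h3, one_zpow, mul_one]
    · by_cases h2 : n = i
      · have h3 : i < n + 1 := by omega
        rw [if_neg h1, if_pos h2, if_pos h3, one_mul, h2]
      · have h3 : ¬ i < n + 1 := by omega
        rw [if_neg h1, if_neg h2, if_neg h3, one_zpow, mul_one]

theorem hMat_simple_diag {F : Type u} [Field F] (D : ChevalleyDatum)
    (hD : D ∈ [chevG2, chevB2, chevD4, chevF4, chevE6, chevE7, chevE8]) (i : ℕ) (hi : i < D.rank)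
    (t : F) (ht : t ≠ 0) :
    D.hMat F (D.simple i) t = Matrix.diagonal (fun idx => t ^ wt D i (enc D idx)) := by
  rw [hMat_eq_dvecL D hD _ (simple_lt D hD i hi) t ht]
  congr 1
  funext idx
  unfold dvecL
  have h1 : (List.range D.rank).map
      (fun k => (t ^ (D.coroot.getD (D.simple i) #[]).getD k 0) ^ wt D k (enc D idx)) =
      (List.range D.rank).map (fun k => (if k = i then t else 1) ^ wt D k (enc D idx)) := by
    apply List.map_congr_left
    intro k hk
    rw [coroot_simple D hD i k hi (List.mem_range.mp hk)]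
    by_cases h : k = i
    · rw [if_pos h, if_pos h, zpow_one]
    · rw [if_neg h, if_neg h, zpow_zero]
  rw [h1, prod_range_single, if_pos hi]

theorem pkgCT_aux : PkgCT.{u} := by
  intro F _ D hD φ hφ hyp
  have hBG : D.borelSubgroup F ≤ D.group F := borelSubgroup_le_group D hD
  have hHG : D.diagonalSubgroup F ≤ D.group F := fun h hh =>
    hBG (le_sup_right (a := D.posUnipotent F) hh)
  have key : ∀ (c : ℕ → F), (∀ i, c i ≠ 0) → ∀ L : List ℕ, (∀ k ∈ L, k < D.rank) →
      ∀ g ∈ D.diagonalSubgroup F,
        ((g : GL D.Idx F) : Matrix D.Idx D.Idx F) = Matrix.diagonal (dvecL D c L) → φ g = 1 := by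
    intro c hc L
    induction L with
    | nil =>
      intro _ g _ hg
      have : g = 1 := by
        apply Units.ext
        rw [hg, Units.val_one]
        ext a b
        simp [Matrix.diagonal_apply, Matrix.one_apply, dvecL_nil]
      rw [this]
      exact hφ.one
    | cons i L ih =>
      intro hL g hg hgm
      have hi : i < D.rank := hL i (by simp)
      obtain ⟨hi', hiH, him⟩ := exists_hU (F := F) D hD (D.simple i) (simple_lt D hD i hi) (c i)
        (hc i)
      have him' : ((hi' : GL D.Idx F) : Matrix D.Idx D.Idx F) =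
          Matrix.diagonal (fun idx => c i ^ wt D i (enc D idx)) := by
        rw [him, hMat_simple_diag D hD i hi (c i) (hc i)]
      have hg'H : hi'⁻¹ * g ∈ D.diagonalSubgroup F :=
        Subgroup.mul_mem _ (Subgroup.inv_mem _ hiH) hg
      have e1 : ((hi' : GL D.Idx F) : Matrix D.Idx D.Idx F) * ((hi'⁻¹ * g : GL D.Idx F) :
          Matrix D.Idx D.Idx F) = (hi' : Matrix D.Idx D.Idx F) * Matrix.diagonal (dvecL D c L) := by
        rw [← Units.val_mul, mul_inv_cancel_left, hgm, him', Matrix.diagonal_mul_diagonal]
        congr 1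
      have e2 : ((hi'⁻¹ * g : GL D.Idx F) : Matrix D.Idx D.Idx F) =
          Matrix.diagonal (dvecL D c L) := hi'.isUnit.mul_left_cancel e1
      have h1 := ih (fun k hk => hL k (by simp [hk])) _ hg'H e2
      have h2 := hyp ⟨i, hi⟩ hi' hiH (c i) (hc i) him
      have e3 : g = hi' * (hi'⁻¹ * g) := by group
      rw [e3, hφ.hl hi' hiH _ (hHG hg'H), h1, h2, mul_one]
  intro h hh
  obtain ⟨c, hc, e⟩ := diagonalSubgroup_eq_dvecL D hD h hh
  exact key c hc (List.range D.rank) (fun k hk => List.mem_range.mp hk) h hh e

end Cfsg.Agent.Lib.Helper36.Stu
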