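import Cfsg.Agent.Lib.Helper36.Stu.CDefs
import Cfsg.Agent.Lib.Helper58.Steinberg
import Cfsg.Agent.S2326
import Cfsg.Agent.S2328

/-!
# Project STU: assembly of the uniqueness of the character of defect zero
-/

set_option autoImplicit false

namespace Cfsg.Agent.Lib.Helper36.Stu

open Cfsg Cfsg.Lie Cfsg.Agent.Lib.Helper18 Cfsg.Agent.Lib.Helper36

universe u

/-- `U` as a subgroup of the Chevalley group -/
abbrev UG {F : Type u} [Field F] (D : ChevalleyDatum) : Subgroup ↥(D.group F) :=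
  (D.posUnipotent F).subgroupOf (D.group F)

/-- `B` as a subgroup of the Chevalley group -/
abbrev BG {F : Type u} [Field F] (D : ChevalleyDatum) : Subgroup ↥(D.group F) :=
  (D.borelSubgroup F).subgroupOf (D.group F)

theorem ext_coe {F : Type u} [Field F] (D : ChevalleyDatum) (f : ↥(D.group F) → ℂ)
    (x : ↥(D.group F)) : ext D f (x : GL D.Idx F) = f x := by
  unfold ext
  rw [dif_pos x.2]

theorem norm_list_prod_le {α : Type*} (f g : α → ℂ) (l : List α)
    (h : ∀ a, ‖f a‖ ≤ ‖g a‖) : ‖(l.map f).prod‖ ≤ ‖(l.map g).prod‖ := by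
  induction l with
  | nil => simp
  | cons a l ih =>
    rw [List.map_cons, List.prod_cons, List.map_cons, List.prod_cons, norm_mul, norm_mul]
    exact mul_le_mul (h a) ih (norm_nonneg _) (norm_nonneg _)

/-- evaluation of a spherical function along `u * h * n_l * u'` -/
theorem sphC_eval (hCM : PkgCM.{u}) {F : Type u} [Field F] [Fintype F] (D : ChevalleyDatum)
    (hD : D ∈ [chevG2, chevB2, chevD4, chevF4, chevE6, chevE7, chevE8]) (φ : GL D.Idx F → ℂ)
    (hφ : SphC D φ) (u h u' : GL D.Idx F) (l : List (Fin D.rank))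
    (hu : u ∈ D.posUnipotent F) (hh : h ∈ D.diagonalSubgroup F) (hl : LRed D l)
    (hu' : u' ∈ D.posUnipotent F) :
    φ (u * h * nW D hD l * u') =
      φ h * (l.map (fun a => φ (Cfsg.Agent.Lib.Helper36.nU D hD a))).prod := by
  have hBG : D.borelSubgroup F ≤ D.group F := borelSubgroup_le_group D hD
  have hHG : h ∈ D.group F := hBG (le_sup_right (a := D.posUnipotent F) hh)
  have hnG := nW_mem_group (F := F) D hD l
  have hu'G : u' ∈ D.group F := posUnipotent_le_group D hD hu'
  have e1 : u * h * nW D hD l * u' = u * (h * nW D hD l * u') := by group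
  rw [e1, hφ.left _ (Subgroup.mul_mem _ (Subgroup.mul_mem _ hHG hnG) hu'G) u hu,
    hφ.right _ (Subgroup.mul_mem _ hHG hnG) u' hu', hφ.hl h hh _ hnG, hCM D hD φ hφ l hl]

/-- evaluation of a spherical function on a double coset `B m B` -/
theorem sphC_bmb {F : Type u} [Field F] (D : ChevalleyDatum)
    (hD : D ∈ [chevG2, chevB2, chevD4, chevF4, chevE6, chevE7, chevE8]) (φ : GL D.Idx F → ℂ)
    (hφ : SphC D φ) (b m b' : GL D.Idx F) (hb : b ∈ D.borelSubgroup F) (hm : m ∈ D.group F)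
    (hb' : b' ∈ D.borelSubgroup F) :
    ∃ h ∈ D.diagonalSubgroup F, ∃ h' ∈ D.diagonalSubgroup F,
      φ (b * m * b') = φ h * φ m * φ h' := by
  have hBG : D.borelSubgroup F ≤ D.group F := borelSubgroup_le_group D hD
  have hUG : D.posUnipotent F ≤ D.group F := posUnipotent_le_group D hD
  have hnorm := diagonalSubgroup_le_normalizer_posUnipotent (F := F) D hD
  obtain ⟨u, hu, h, hh, e⟩ := exists_mul_of_mem_sup (D.posUnipotent F) (D.diagonalSubgroup F)
    hnorm b hb
  obtain ⟨u', hu', h', hh', e'⟩ := exists_mul_of_mem_sup (D.posUnipotent F)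
    (D.diagonalSubgroup F) hnorm b'⁻¹ (Subgroup.inv_mem _ hb')
  have e'' : b' = h'⁻¹ * u'⁻¹ := by
    rw [← mul_inv_rev, ← e', inv_inv]
  have hHG : h ∈ D.group F := hBG (le_sup_right (a := D.posUnipotent F) hh)
  have hH'G : h'⁻¹ ∈ D.group F :=
    hBG (le_sup_right (a := D.posUnipotent F) (Subgroup.inv_mem _ hh'))
  refine ⟨h, hh, h'⁻¹, Subgroup.inv_mem _ hh', ?_⟩
  have e1 : b * m * b' = u * (h * (m * h'⁻¹) * u'⁻¹) := by
    rw [e, e'']
    group
  rw [e1, hφ.left _ (Subgroup.mul_mem _ (Subgroup.mul_mem _ hHG (Subgroup.mul_mem _ hm hH'G))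
      (hUG (Subgroup.inv_mem _ hu'))) u hu,
    hφ.right _ (Subgroup.mul_mem _ hHG (Subgroup.mul_mem _ hm hH'G)) _ (Subgroup.inv_mem _ hu'),
    hφ.hl h hh _ (Subgroup.mul_mem _ hm hH'G), hφ.hr _ (Subgroup.inv_mem _ hh') m hm, mul_assoc]

/-- Project STU, main theorem: the Steinberg character is the only irreducible character of
`p`-defect zero. -/
theorem stu_main (hSph : PkgSph.{u}) (hTorus : PkgTorus.{u}) (hCmp : PkgCmp.{u})
    (hUniq : PkgUniq.{u}) (hQuad : PkgQuad.{u}) (hFib : PkgFib.{u, u}) (hMult1 : PkgMult1.{u})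
    (hAddChar : PkgAddChar.{u}) (hBurn : PkgBurn.{u}) (hFrob : PkgFrob.{u})
    (hParSum : PkgParSum.{u}) (hGlue : PkgCGlue.{u}) (hCQ : PkgCQ.{u}) (hCM : PkgCM.{u})
    (hCR : PkgCR.{u}) (hCT : PkgCT.{u}) (hCP : PkgCP.{u}) (hCS1 : PkgCS1.{u})
    (hCS2 : PkgCS2.{u}) (hCLa : PkgCLa.{u}) (hCLb : PkgCLb.{u})
    {F : Type u} [Field F] [Fintype F] (p : ℕ) [Fact p.Prime] [CharP F p] (D : ChevalleyDatum)
    (hD : D ∈ [chevG2, chevB2, chevD4, chevF4, chevE6, chevE7, chevE8])
    (χ : ↥(D.group F) → ℂ) (hχ : Cfsg.IsIrrCharacter ↥(D.group F) χ)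
    (hdeg : ∃ d : ℕ, χ 1 = (d : ℂ) ∧ p ^ (Nat.card ↥(D.group F)).factorization p ∣ d) :
    χ = D.steinbergCharacter F := by
  classical
  haveI : Finite ↥(D.group F) := inferInstance
  letI : Fintype ↥(D.group F) := Fintype.ofFinite _
  have hUle : D.posUnipotent F ≤ D.group F := posUnipotent_le_group D hD
  have hBle : D.borelSubgroup F ≤ D.group F := borelSubgroup_le_group D hD
  have hHB : D.diagonalSubgroup F ≤ D.borelSubgroup F := le_sup_right
  have hUB : D.posUnipotent F ≤ D.borelSubgroup F := le_sup_left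
  have hnormU := diagonalSubgroup_le_normalizer_posUnipotent (F := F) D hD
  have hq0 : 0 < Fintype.card F := Fintype.card_pos
  have hqR : (0 : ℝ) < (Fintype.card F : ℝ) := by exact_mod_cast hq0
  have hqC : (Fintype.card F : ℂ) ≠ 0 := by exact_mod_cast hq0.ne'
  -- the Sylow subgroup
  obtain ⟨P, hP⟩ := Cfsg.Agent.S2326.result (F := F) p D hD
  have hcardU : Nat.card ↥(UG (F := F) D) = Fintype.card F ^ (D.nroots / 2) := by
    rw [Nat.card_congr (Subgroup.subgroupOfEquivOfLe hUle).toEquiv]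
    exact Cfsg.Agent.Lib.Helper17.card_posUnipotent D hD
  have hsing : ∀ u ∈ UG (F := F) D, u ≠ 1 → p ∣ orderOf u := by
    intro u hu hne
    have huP : u ∈ (P : Subgroup ↥(D.group F)) := by rw [hP]; exact hu
    obtain ⟨k, hk⟩ := P.isPGroup' ⟨u, huP⟩
    have hk' : u ^ p ^ k = 1 := by
      have := congrArg Subtype.val hk
      simpa using this
    have hdvd := orderOf_dvd_of_pow_eq_one hk'
    obtain ⟨j, _, hjeq⟩ := (Nat.dvd_prime_pow (Fact.out : p.Prime)).mp hdvd
    rcases Nat.eq_zero_or_pos j with h0 | hpos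
    · exfalso
      rw [h0, pow_zero] at hjeq
      exact hne (orderOf_eq_one_iff.mp hjeq)
    · rw [hjeq]
      exact dvd_pow_self p (Nat.pos_iff_ne_zero.mp hpos)
  -- vanishing on `U \ {1}`
  have hχU : ∀ u ∈ UG (F := F) D, u ≠ 1 → χ u = 0 := by
    intro u hu hne
    obtain ⟨d, hd1, d', hd'⟩ := hdeg
    have h1 : p ^ (Nat.card ↥(D.group F)).factorization p *
        (Nat.card ↥(D.group F) / p ^ (Nat.card ↥(D.group F)).factorization p) =
        Nat.card ↥(D.group F) := Nat.ordProj_mul_ordCompl_eq_self _ _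
    have hm : ¬ p ∣ Nat.card ↥(D.group F) / p ^ (Nat.card ↥(D.group F)).factorization p :=
      Nat.not_dvd_ordCompl (Fact.out : p.Prime) Nat.card_pos.ne'
    refine Cfsg.Agent.Lib.Helper58.Steinberg.irr_vanish_of_defect_zero (p := p) hχ d d'
      (Nat.card ↥(D.group F) / p ^ (Nat.card ↥(D.group F)).factorization p) hd1 ?_ hm
      (hsing u hu hne)
    calc Nat.card ↥(D.group F) * d'
        = (p ^ (Nat.card ↥(D.group F)).factorization p *
          (Nat.card ↥(D.group F) / p ^ (Nat.card ↥(D.group F)).factorization p)) * d' := by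
          rw [h1]
      _ = d * (Nat.card ↥(D.group F) / p ^ (Nat.card ↥(D.group F)).factorization p) := by
          rw [hd']; ring
  have hSU : ∀ u ∈ UG (F := F) D, u ≠ 1 → D.steinbergCharacter F u = 0 := fun u hu hne =>
    Cfsg.Agent.S2328.result (F := F) p D hD u (hsing u hu hne)
  -- degrees
  have hχ1 : χ 1 = (Nat.card ↥(UG (F := F) D) : ℂ) :=
    hCLb hMult1 D hD (hCLa hAddChar D hD) χ hχ hχU
  have hS1 : D.steinbergCharacter F 1 = (Nat.card ↥(UG (F := F) D) : ℂ) := by
    rw [hcardU, Nat.cast_pow]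
    exact steinberg_degree (F := F) D hD
  have hsumU : ∀ ψ : ↥(D.group F) → ℂ, (∀ u ∈ UG (F := F) D, u ≠ 1 → ψ u = 0) →
      ψ 1 = (Nat.card ↥(UG (F := F) D) : ℂ) →
      ∑ᶠ u : ↥(UG (F := F) D), ψ (u : ↥(D.group F)) = (Nat.card ↥(UG (F := F) D) : ℂ) := by
    intro ψ h0 h1
    rw [finsum_eq_single (fun u : ↥(UG (F := F) D) => ψ (u : ↥(D.group F))) 1
      (fun u hu => h0 u u.2 (fun h => hu (Subtype.ext h)))]
    exact h1
  have hsumχ := hsumU χ hχU hχ1
  have hsumS := hsumU (D.steinbergCharacter F) hSU hS1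
  have hirrS := steinberg_irr (F := F) D hD
  -- spherical functions
  have hCχ : SphC D (ext D (sph (UG (F := F) D) χ)) :=
    hGlue hTorus D hD _ (hSph (UG (F := F) D) χ hχ hsumχ)
  have hCS : SphC D (ext D (sph (UG (F := F) D) (D.steinbergCharacter F))) :=
    hGlue hTorus D hD _ (hSph (UG (F := F) D) (D.steinbergCharacter F) hirrS hsumS)
  -- the Steinberg side
  have hSH : ∀ h ∈ D.diagonalSubgroup F,
      ext D (sph (UG (F := F) D) (D.steinbergCharacter F)) h = 1 :=
    hCS2 hBurn D hD (fun h hh => hCS.hn h hh)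
  have hSn : ∀ j : Fin D.rank,
      ext D (sph (UG (F := F) D) (D.steinbergCharacter F))
        (Cfsg.Agent.Lib.Helper36.nU D hD j) = -1 / (Fintype.card F : ℂ) := by
    intro j
    have hnG := Cfsg.Agent.Lib.Helper36.nU_mem_group (F := F) D hD j
    have hcoe : ((({(j : ℕ)} : Finset ℕ) : Set ℕ)) = ({(j : ℕ)} : Set ℕ) := Finset.coe_singleton _
    obtain ⟨r, hr, hc⟩ := hParSum (UG (F := F) D) (BG (F := F) D) (D.parabolicIn F {(j : ℕ)})
      (D.steinbergCharacter F)
      (ext D (sph (UG (F := F) D) (D.steinbergCharacter F)) (Cfsg.Agent.Lib.Helper36.nU D hD j))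
      (by
        intro x hx
        rw [Subgroup.mem_subgroupOf] at hx ⊢
        exact hUB hx)
      (by
        intro x hx
        show x ∈ (D.parabolicSubgroup F _).subgroupOf (D.group F)
        rw [Subgroup.mem_subgroupOf] at hx ⊢
        exact (le_sup_left : D.borelSubgroup F ≤ D.parabolicSubgroup F _) hx)
      (by
        intro x hx
        rw [Subgroup.mem_subgroupOf] at hx
        obtain ⟨u, hu, h, hh, e⟩ := exists_mul_of_mem_sup (D.posUnipotent F)
          (D.diagonalSubgroup F) hnormU _ hx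
        rw [← ext_coe D (sph (UG (F := F) D) (D.steinbergCharacter F)) x, e, hCS.left h (hBle (hHB hh)) u hu]
        exact hSH h hh)
      (by
        intro x hx hxB
        have hx' : (x : GL D.Idx F) ∈ D.parabolicSubgroup F ({(j : ℕ)} : Set ℕ) := by
          rw [← hcoe]
          exact Subgroup.mem_subgroupOf.mp hx
        have hxB' : (x : GL D.Idx F) ∉ D.borelSubgroup F := fun h =>
          hxB (Subgroup.mem_subgroupOf.mpr h)
        obtain ⟨b, hb, b', hb', e⟩ := (hCP D hD j).2 _ hx' hxB'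
        obtain ⟨h, hh, h', hh', e2⟩ := sphC_bmb D hD _ hCS b _ b' hb hnG hb'
        rw [← ext_coe D (sph (UG (F := F) D) (D.steinbergCharacter F)) x, e, e2, hSH h hh, hSH h' hh', one_mul, mul_one])
      ⟨⟨Cfsg.Agent.Lib.Helper36.nU D hD j, hnG⟩, by
        show _ ∈ (D.parabolicSubgroup F _).subgroupOf (D.group F)
        rw [Subgroup.mem_subgroupOf]
        exact nU_mem_par D hD _ j (by simp), fun h =>
        (hCP D hD j).1 (Subgroup.mem_subgroupOf.mp h)⟩
      (hCS1 hFrob D hD j)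
    obtain ⟨hC, hCH, _, _, hquad⟩ := hCQ hFib D hD _ hCS j
    have hsum1 : ∑ᶠ t : Fˣ, ext D (sph (UG (F := F) D) (D.steinbergCharacter F)) (hC t) =
        (Fintype.card F : ℂ) - 1 := by
      have h1 : ∀ t : Fˣ, ext D (sph (UG (F := F) D) (D.steinbergCharacter F)) (hC t) = 1 :=
        fun t => hSH _ (hCH t)
      simp only [h1]
      rw [finsum_eq_sum_of_fintype]
      simp only [Finset.sum_const, Finset.card_univ, nsmul_eq_mul, mul_one]
      rw [Fintype.card_units, Nat.cast_sub hq0, Nat.cast_one]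
    rw [hsum1, hSH _ (Cfsg.Agent.Lib.Helper36.nU_sq_mem D hD j), hc, one_mul] at hquad
    have hquadR : (Fintype.card F : ℝ) * r ^ 2 = 1 + r * ((Fintype.card F : ℝ) - 1) := by
      exact_mod_cast hquad
    have hprod : ((Fintype.card F : ℝ) * r + 1) * (r - 1) = 0 := by
      linear_combination hquadR
    have hr1 : r - 1 ≠ 0 := by
      intro h
      linarith
    have hr2 : (Fintype.card F : ℝ) * r + 1 = 0 := by
      rcases mul_eq_zero.mp hprod with h | h
      · exact h
      · exact absurd h hr1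
    have hr3 : r = -1 / (Fintype.card F : ℝ) := by
      field_simp
      linarith
    rw [hc, hr3]
    push_cast
    ring
  have hSnorm : ∀ j : Fin D.rank,
      ‖ext D (sph (UG (F := F) D) (D.steinbergCharacter F))
        (Cfsg.Agent.Lib.Helper36.nU D hD j)‖ = 1 / (Fintype.card F : ℝ) := by
    intro j
    rw [hSn j, norm_div, norm_neg, norm_one, Complex.norm_natCast]
  -- the `χ` side
  have hχQ : ∀ j : Fin D.rank,
      1 / (Fintype.card F : ℝ) ≤
        ‖ext D (sph (UG (F := F) D) χ) (Cfsg.Agent.Lib.Helper36.nU D hD j)‖ ∧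
      (‖ext D (sph (UG (F := F) D) χ) (Cfsg.Agent.Lib.Helper36.nU D hD j)‖ =
          1 / (Fintype.card F : ℝ) →
        ext D (sph (UG (F := F) D) χ) (Cfsg.Agent.Lib.Helper36.nU D hD j) =
          -1 / (Fintype.card F : ℂ) ∧
        ∀ h ∈ D.diagonalSubgroup F, ∀ t : F, t ≠ 0 →
          ((h : GL D.Idx F) : Matrix D.Idx D.Idx F) = D.hMat F (D.simple j) t →
          ext D (sph (UG (F := F) D) χ) h = 1) := by
    intro j
    obtain ⟨hC, hCH, hCmat, hC1, hquad⟩ := hCQ hFib D hD _ hCχ j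
    have hcard : Fintype.card Fˣ + 1 = Fintype.card F := by
      rw [Fintype.card_units]
      omega
    obtain ⟨hlow, heq⟩ := hQuad (ι := Fˣ) (Fintype.card F)
      (ext D (sph (UG (F := F) D) χ) (Cfsg.Agent.Lib.Helper36.nU D hD j))
      (ext D (sph (UG (F := F) D) χ)
        (Cfsg.Agent.Lib.Helper36.nU D hD j * Cfsg.Agent.Lib.Helper36.nU D hD j))
      (fun t => ext D (sph (UG (F := F) D) χ) (hC t)) 1 hcard
      (hCχ.hn _ (Cfsg.Agent.Lib.Helper36.nU_sq_mem D hD j))
      (fun t => hCχ.hn _ (hCH t))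
      (by
        show ext D (sph (UG (F := F) D) χ) (hC 1) = 1
        rw [hC1]
        exact hCχ.one)
      (by
        rw [← finsum_eq_sum_of_fintype]
        exact hquad)
    refine ⟨hlow, fun hn => ?_⟩
    obtain ⟨h1, _, h3⟩ := heq hn
    refine ⟨h1, fun h hh t ht e => ?_⟩
    have : h = hC (Units.mk0 t ht) := by
      apply Units.ext
      rw [e, hCmat]
      rfl
    rw [this]
    exact h3 _
  -- the comparison
  have hineq : ∀ g : ↥(D.group F), ‖sph (UG (F := F) D) (D.steinbergCharacter F) g‖ ≤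
      ‖sph (UG (F := F) D) χ g‖ := by
    intro g
    obtain ⟨u, hu, h, hh, l, hl, u', hu', e⟩ := hCR D hD (g : GL D.Idx F) g.2
    rw [← ext_coe D (sph (UG (F := F) D) (D.steinbergCharacter F)) g, ← ext_coe D (sph (UG (F := F) D) χ) g, e,
      sphC_eval hCM D hD _ hCS u h u' l hu hh hl hu',
      sphC_eval hCM D hD _ hCχ u h u' l hu hh hl hu', norm_mul, norm_mul, hCS.hn h hh,
      hCχ.hn h hh, one_mul, one_mul]
    exact norm_list_prod_le _ _ l (fun a => by rw [hSnorm a]; exact (hχQ a).1)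
  have hnormeq := hCmp (UG (F := F) D) χ (D.steinbergCharacter F) hχ hirrS hsumχ hsumS
    (hχ1.trans hS1.symm) hineq
  have hχnorm : ∀ j : Fin D.rank,
      ‖ext D (sph (UG (F := F) D) χ) (Cfsg.Agent.Lib.Helper36.nU D hD j)‖ =
        1 / (Fintype.card F : ℝ) := by
    intro j
    have h1 := hnormeq ⟨Cfsg.Agent.Lib.Helper36.nU D hD j,
      Cfsg.Agent.Lib.Helper36.nU_mem_group D hD j⟩
    rw [← ext_coe D (sph (UG (F := F) D) χ) ⟨Cfsg.Agent.Lib.Helper36.nU D hD j,
        Cfsg.Agent.Lib.Helper36.nU_mem_group D hD j⟩,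
      ← ext_coe D (sph (UG (F := F) D) (D.steinbergCharacter F))
        ⟨Cfsg.Agent.Lib.Helper36.nU D hD j,
        Cfsg.Agent.Lib.Helper36.nU_mem_group D hD j⟩] at h1
    rw [← hSnorm j]
    exact h1
  have hχn : ∀ j : Fin D.rank,
      ext D (sph (UG (F := F) D) χ) (Cfsg.Agent.Lib.Helper36.nU D hD j) =
        -1 / (Fintype.card F : ℂ) := fun j => ((hχQ j).2 (hχnorm j)).1
  have hχH : ∀ h ∈ D.diagonalSubgroup F, ext D (sph (UG (F := F) D) χ) h = 1 :=
    hCT D hD _ hCχ (fun i h hh t ht e => ((hχQ i).2 (hχnorm i)).2 h hh t ht e)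
  -- equality of the spherical functions
  have hsph : ∀ g : ↥(D.group F), sph (UG (F := F) D) χ g =
      sph (UG (F := F) D) (D.steinbergCharacter F) g := by
    intro g
    obtain ⟨u, hu, h, hh, l, hl, u', hu', e⟩ := hCR D hD (g : GL D.Idx F) g.2
    rw [← ext_coe D (sph (UG (F := F) D) χ) g, ← ext_coe D (sph (UG (F := F) D) (D.steinbergCharacter F)) g, e,
      sphC_eval hCM D hD _ hCS u h u' l hu hh hl hu',
      sphC_eval hCM D hD _ hCχ u h u' l hu hh hl hu', hχH h hh, hSH h hh]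
    have hfun : (fun a => ext D (sph (UG (F := F) D) χ) (Cfsg.Agent.Lib.Helper36.nU D hD a)) =
        (fun a => ext D (sph (UG (F := F) D) (D.steinbergCharacter F))
          (Cfsg.Agent.Lib.Helper36.nU D hD a)) := by
      funext a
      rw [hχn a, hSn a]
    rw [hfun]
  exact hUniq (UG (F := F) D) χ (D.steinbergCharacter F) hχ hirrS hsumχ hsumS
    (hχ1.trans hS1.symm) hsph

end Cfsg.Agent.Lib.Helper36.Stu
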